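import Cfsg.Agent.H837.JM.Chk
import Cfsg.Agent.H858.FixJ4

/-!
# The groups `11:5` and `L₂(11)` of `J4`: consequences of the checks (helper837)
-/

set_option autoImplicit false

open Cfsg

namespace Cfsg.Agent.H837.JM.Base

open Cfsg.Agent.Lib Cfsg.Agent.Lib.F2MatGroup
open Cfsg.Agent.Lib.F2Mat (force force_eq toVec toVec_inj vmul_lt toVec_vmul)
open Cfsg.Agent.J4.Rep112 Cfsg.Agent.J4.LowerData Cfsg.Agent.J4.Lower Cfsg.Agent.J4.Pres
open Cfsg.Agent.J4.Upper (rw20)
open Cfsg.Agent.J4.Classes (psi hyp)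
open Cfsg.Agent.H858.VK (rho_injective)
open Cfsg.Agent.H858.Data (slpX LX map_LX)
open Cfsg.Agent.H858.Elem (s j f r)
open Cfsg.Agent.H858.Loc5 (J F5)
open Cfsg.Agent.H860.PairGroup Cfsg.Agent.H860.JData Cfsg.Agent.H860.JJ4
open Cfsg.Agent.H860.Orb (tget)
open Cfsg.Agent.SporadicStructure.M24El (idP)
open Cfsg.Agent.H837.JM.Dat Cfsg.Agent.H837.JM.Chk

/-- the group `Spor.J4` -/
local notation "𝒢" => Cfsg.Spor.J4

/-! ### The action on row vectors -/

/-- the action on row vectors -/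
noncomputable def act (v : Fin 112 → ZMod 2) (g : 𝒢) : Fin 112 → ZMod 2 :=
  Matrix.vecMul v ((rho g : GL (Fin 112) (ZMod 2)) : Matrix (Fin 112) (Fin 112) (ZMod 2))

theorem act_one (v : Fin 112 → ZMod 2) : act v 1 = v := by
  unfold act
  rw [map_one, Units.val_one, Matrix.vecMul_one]

theorem act_mul (v : Fin 112 → ZMod 2) (g h : 𝒢) : act v (g * h) = act (act v g) h := by
  unfold act
  rw [map_mul, Units.val_mul, Matrix.vecMul_vecMul]

/-- the stabilizer of a vector -/
noncomputable def Fx (v : Fin 112 → ZMod 2) : Subgroup 𝒢 where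
  carrier := {g | act v g = v}
  one_mem' := act_one v
  mul_mem' := by
    intro a b ha hb
    show act v (a * b) = v
    rw [act_mul, show act v a = v from ha]; exact hb
  inv_mem' := by
    intro a ha
    show act v a⁻¹ = v
    conv_lhs => rw [← show act v a = v from ha]
    rw [← act_mul, mul_inv_cancel, act_one]

theorem mem_Fx {v : Fin 112 → ZMod 2} {g : 𝒢} : g ∈ Fx v ↔ act v g = v := Iff.rfl

theorem vW_nil (L : List ℕ) (v : ℕ) : vW L [] v = v := rfl
theorem vW_cons (L : List ℕ) (i : ℕ) (w : List ℕ) (v : ℕ) :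
    vW L (i :: w) v = vW L w (F2Mat.vmul 112 v (get (F2Mat.one 112) L i)) :=
  force_eq (F2Mat.vmul 112 v (get (F2Mat.one 112) L i)) (vW L w)

theorem vW_lt (L : List ℕ) (w : List ℕ) {v : ℕ} (hv : v < 2 ^ 112) : vW L w v < 2 ^ 112 := by
  induction w generalizing v with
  | nil => exact hv
  | cons i w ih =>
    rw [vW_cons]
    exact ih (vmul_lt _ _)

theorem vW_sound {LG : List 𝒢} {L : List ℕ} (h : List.Forall₂ (Codes 112) (LG.map rho) L) (w : List ℕ) (v : ℕ) :
    toVec 112 (vW L w v) = act (toVec 112 v) (evG LG w) := by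
  induction w generalizing v with
  | nil => rw [vW_nil, evG_nil, act_one]
  | cons i w ih =>
    have h1 := codes_get h i
    rw [getG_map] at h1
    unfold Codes at h1
    have h2 : toVec 112 (F2Mat.vmul 112 v (get (F2Mat.one 112) L i)) = act (toVec 112 v) (getG LG i) := by
      rw [toVec_vmul, act, h1]
    rw [vW_cons, ih, evG_cons, act_mul, h2]

theorem run_LY {k : List ℕ → Bool} (h : run 112 (slpQ ++ slpX ++ slpY) codes k = true) :
    ∃ L, List.Forall₂ (Codes 112) (LY.map rho) L ∧ k L = true := by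
  obtain ⟨L', h', hk⟩ := run_sound codes_gens h
  exact ⟨L', by rw [map_LY]; exact h', hk⟩

theorem facts0 : (∀ p ∈ eqsY, evG LY p.1 = evG LY p.2) ∧
    (∀ t ∈ tsE, act (toVec 112 t.2.1) (evG LY t.1) = toVec 112 t.2.2) ∧
    (∀ t ∈ tsN, t.2.1 < 2 ^ 112 → t.2.2 < 2 ^ 112 →
      act (toVec 112 t.2.1) (evG LY t.1) ≠ toVec 112 t.2.2) := by
  obtain ⟨L, h', hk⟩ := run_LY chk0
  rcases hb : eqs 112 eqsY L with _ | _
  · rw [hb] at hk; exact absurd hk Bool.false_ne_true
  · rw [hb] at hk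
    have hk' : (vEq L tsE && vNe L tsN) = true := hk
    rw [Bool.and_eq_true] at hk'
    refine ⟨fun p hp => ?_, fun t ht => ?_, fun t ht h1 h2 h => ?_⟩
    · apply rho_injective
      rw [← evG_map, ← evG_map]
      exact eqs_sound h' hb p hp
    · have h1 := List.all_eq_true.1 hk'.1 t ht
      rw [← vW_sound h', Nat.eq_of_beq_eq_true h1]
    · have h3 := List.all_eq_true.1 hk'.2 t ht
      rw [← vW_sound h'] at h
      have h4 := toVec_inj (vW_lt L t.1 h1) h2 h
      have h5 : (!(Nat.beq (vW L t.1 t.2.1) t.2.2)) = true := h3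
      rw [h4, Nat.beq_refl] at h5
      exact absurd h5 (by decide)

theorem eqY {p : List ℕ × List ℕ} (h : p ∈ eqsY) : evG LY p.1 = evG LY p.2 := facts0.1 p h

theorem neW_sound {L : List ℕ} (h : List.Forall₂ (Codes 112) (LY.map rho) L) {w : List ℕ} (hw : neW L w = true) :
    evG LY w ≠ 1 := by
  intro h1
  have h2 := vW_sound h w 1
  rw [h1, act_one] at h2
  have h3 := toVec_inj (vW_lt L w (by norm_num)) (by norm_num) h2
  unfold neW at hw
  rw [h3, Nat.beq_refl] at hw
  exact absurd hw (by decide)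

theorem fixW_sound {L : List ℕ} (h : List.Forall₂ (Codes 112) (LY.map rho) L) {w : List ℕ}
    (hw : fixW L w = true) : evG LY w ∈ Fx (toVec 112 pK) := by
  rw [mem_Fx, ← vW_sound h, Nat.eq_of_beq_eq_true hw]

/-! ### The elements of `J` -/

theorem evG_append {G : Type*} [Group G] (L : List G) (a b : List ℕ) : evG L (a ++ b) = evG L a * evG L b := by
  induction a with
  | nil => rw [List.nil_append, evG_nil, one_mul]
  | cons i a ih => rw [List.cons_append, evG_cons, evG_cons, ih, mul_assoc]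

theorem gs : getG LY is = s := by
  rw [show is = 27 + 9 from rfl, getLY]; exact Cfsg.Agent.H858.Elem.sg_eq.symm
theorem gj : getG LY ij = j := by
  rw [show ij = 27 + 0 from rfl, getLY]; exact Cfsg.Agent.H858.Elem.j_eq.symm
theorem gf : getG LY iF = f := by
  rw [show iF = 27 + 3 from rfl, getLY]; exact Cfsg.Agent.H858.Elem.f_eq.symm
theorem gr : getG LY ir = r := by
  rw [show ir = 27 + 2 from rfl, getLY]; exact Cfsg.Agent.H858.Elem.r_eq.symm
theorem gx : getG LY iX = x := by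
  rw [show iX = 27 + 26 from rfl, getLY]; exact Cfsg.Agent.H858.Elem.g26
theorem gy : getG LY iY = y := by
  rw [show iY = 27 + 27 from rfl, getLY]; exact Cfsg.Agent.H858.Elem.g27
theorem gyi : getG LY iYi = y⁻¹ := by
  rw [show iYi = 27 + 28 from rfl, getLY]; exact Cfsg.Agent.H858.Elem.g28
theorem gt : getG LY iT = t := by
  rw [show iT = 27 + 29 from rfl, getLY]; exact Cfsg.Agent.H858.Elem.g29

theorem tree_step {i : ℕ} (hi : i < 1344) (h0 : i ≠ 0) :
    tget TJ.par 11 i < i ∧ tget TJ.lets 2 i < 2 ∧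
      TJ.x i = mc (TJ.x (tget TJ.par 11 i)) (TJ.g (tget TJ.lets 2 i)) := by
  have h := Cfsg.Agent.H860.JTab.tree
  unfold Tab.treeOk at h
  simp only [Bool.and_eq_true] at h
  have h1 := h.2
  rw [List.all_eq_true] at h1
  have h2 := h1 i (List.mem_range.2 hi)
  rw [Bool.or_eq_true, Nat.beq_eq, or_iff_right h0, Bool.and_eq_true, Bool.and_eq_true,
    Nat.blt_eq, Nat.blt_eq] at h2
  exact ⟨h2.1.1, h2.1.2, eqc_eq h2.2⟩

theorem rho_jw (k : ℕ) : ∀ i, i ≤ k → i < 1344 → rho (evG LY (jw k i)) = E qs psi (TJ.x i) := by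
  have h0 : ∀ k, jw k 0 = [] := by
    intro k
    rcases k with _ | k <;> rfl
  have hz : rho (evG LY []) = E qs psi (TJ.x 0) := by
    rw [Tab.x_zero Cfsg.Agent.H860.JTab.tree, E_one, evG_nil, map_one]
  induction k with
  | zero =>
    intro i hi _
    have h1 : i = 0 := by omega
    subst h1
    exact hz
  | succ k ih =>
    intro i hi hi2
    by_cases hi0 : i = 0
    · subst hi0
      rw [h0]; exact hz
    · obtain ⟨h1, h2, h3⟩ := tree_step hi2 hi0
      have e1 : jw (k + 1) i = jw k (tget TJ.par 11 i) ++ [cond (Nat.beq (tget TJ.lets 2 i) 0) is ij] := by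
        have h4 : Nat.beq i 0 = false := by
          rw [← Bool.not_eq_true, Nat.beq_eq]; exact hi0
        show cond (Nat.beq i 0) [] (jw k (tget TJ.par 11 i) ++ [cond (Nat.beq (tget TJ.lets 2 i) 0) is ij]) = _
        rw [h4]; rfl
      rw [e1, evG_append, map_mul, ih _ (by omega) (by omega), h3,
        E_mul hyp (Tab.x_ok Cfsg.Agent.H860.JTab.tree (show tget TJ.par 11 i < TJ.n from h1.trans hi2)) (Tab.g_ok Cfsg.Agent.H860.JTab.tree _)]
      have h6 : rho (evG LY [cond (Nat.beq (tget TJ.lets 2 i) 0) is ij]) = E qs psi (TJ.g (tget TJ.lets 2 i)) := by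
        have h5 : tget TJ.lets 2 i = 0 ∨ tget TJ.lets 2 i = 1 := by omega
        rcases h5 with h5 | h5
        · rw [h5, evG_cons, evG_nil, mul_one, ← rho_s, ← gs]; rfl
        · rw [h5, evG_cons, evG_nil, mul_one, ← rho_j, ← gj]; rfl
      rw [h6]

/-- the `i`-th element of `J` -/
noncomputable def cJ (i : ℕ) : 𝒢 := evG LY (jW i)

theorem rho_cJ {i : ℕ} (hi : i < 1344) : rho (cJ i) = E qs psi (TJ.x i) := rho_jw 1344 i hi.le hi

theorem x_ok {i : ℕ} (hi : i < 1344) : Cfsg.Agent.SporadicStructure.M24El.ok (TJ.x i).2 = true :=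
  Tab.x_ok Cfsg.Agent.H860.JTab.tree (show i < TJ.n from hi)

/-- the elements of `J` are listed by the table -/
theorem exists_cJ {c : 𝒢} (hc : c ∈ J) : ∃ i < 1344, c = cJ i := by
  have h1 : rho c ∈ Tab.K TJ qs psi := by rw [← map_J]; exact ⟨c, hc, rfl⟩
  obtain ⟨i, hi, h2⟩ := Tab.exists_x hyp Cfsg.Agent.H860.JTab.tree Cfsg.Agent.H860.JTab.closed h1
  exact ⟨i, hi, rho_injective (by rw [h2, rho_cJ hi])⟩

theorem E_mul_ne {a b c : ℕ × ℕ} (ha : Cfsg.Agent.SporadicStructure.M24El.ok a.2 = true)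
    (hb : Cfsg.Agent.SporadicStructure.M24El.ok b.2 = true) (hc : Cfsg.Agent.SporadicStructure.M24El.ok c.2 = true)
    (ha' : a.1 < 2048) (hc' : c.1 < 2048) (h : eqc (mc a b) (mc c (0, idP)) = false) :
    E qs psi a * E qs psi b ≠ E qs psi c := by
  have h2 := E_ne (d := (0, idP)) hyp psi_inter ha hb hc Cfsg.Agent.SporadicStructure.M24El.ok_idP ha' hc' h
  intro h1
  apply h2
  rw [E_mul hyp ha hb, E_mul (b := (0, idP)) hyp hc Cfsg.Agent.SporadicStructure.M24El.ok_idP, E_one, mul_one, h1]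

theorem E_mul_eq {a b c : ℕ × ℕ} (ha : Cfsg.Agent.SporadicStructure.M24El.ok a.2 = true)
    (hb : Cfsg.Agent.SporadicStructure.M24El.ok b.2 = true) (h : eqc c (mc a b) = true) :
    E qs psi a * E qs psi b = E qs psi c := by
  rw [eqc_eq h, E_mul hyp ha hb]

theorem cJ_mul_ne {a b c : ℕ} (ha : a < 1344) (hb : b < 1344) (hc : c < 1344)
    (h : eqc (mc (TJ.x a) (TJ.x b)) (mc (TJ.x c) (0, idP)) = false) : cJ a * cJ b ≠ cJ c := by
  intro h1
  refine E_mul_ne (x_ok ha) (x_ok hb) (x_ok hc) (Tab.x_lt a) (Tab.x_lt c) h ?_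
  rw [← rho_cJ ha, ← rho_cJ hb, ← rho_cJ hc, ← map_mul, h1]

theorem cJ_zero : cJ 0 = 1 := rfl

theorem cJ_mul_eq {a b c : ℕ} (ha : a < 1344) (hb : b < 1344) (hc : c < 1344)
    (h : eqc (TJ.x c) (mc (TJ.x a) (TJ.x b)) = true) : cJ c = cJ a * cJ b := by
  apply rho_injective
  rw [map_mul, rho_cJ ha, rho_cJ hb, rho_cJ hc]
  exact (E_mul_eq (x_ok ha) (x_ok hb) h).symm

end Cfsg.Agent.H837.JM.Base
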