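import Cfsg.Agent.H837.JM.Dat
import Cfsg.Agent.J4.Upper

/-!
# The groups `11:5` and `L₂(11)` of `J4`: checks (helper837)
-/

set_option autoImplicit false

open Cfsg

namespace Cfsg.Agent.H837.JM.Chk

open Cfsg.Agent.Lib Cfsg.Agent.Lib.F2MatGroup
open Cfsg.Agent.Lib.F2Mat (force force_eq)
open Cfsg.Agent.J4.Rep112 Cfsg.Agent.J4.LowerData Cfsg.Agent.J4.Lower
open Cfsg.Agent.J4.Upper (rw20)
open Cfsg.Agent.J4.Classes (psi)
open Cfsg.Agent.H858.Data (slpX LX map_LX)
open Cfsg.Agent.H860.PairGroup Cfsg.Agent.H860.JData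
open Cfsg.Agent.SporadicStructure.M24El (idP)
open Cfsg.Agent.H837.JM.Dat

/-- the word of `f ^ a` -/
def fw (a : ℕ) : List ℕ := [[], [iF], [iF2], [iF3], [iF4]].getD a []

/-- the word of `f ^ a * c * r²` -/
def wW (a i : ℕ) : List ℕ := fw a ++ (jW i ++ [ir2])
/-- the word of `f ^ b * c * r` -/
def uW (b i : ℕ) : List ℕ := fw b ++ (jW i ++ [ir])

/-- three times a word -/
def rep3 (w : List ℕ) : List ℕ := w ++ (w ++ w)
/-- five times a word -/
def rep5 (w : List ℕ) : List ℕ := w ++ (w ++ (w ++ (w ++ w)))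

/-- vector equations -/
def vEq (L : List ℕ) (ts : List (List ℕ × ℕ × ℕ)) : Bool := ts.all fun t => Nat.beq (vW L t.1 t.2.1) t.2.2
/-- vector inequations -/
def vNe (L : List ℕ) (ts : List (List ℕ × ℕ × ℕ)) : Bool := ts.all fun t => !(Nat.beq (vW L t.1 t.2.1) t.2.2)

/-- the equations for `p0`, `pK` -/
def tsE : List (List ℕ × ℕ × ℕ) := (([iX] :: [iY] :: [iS1] :: (List.range 11).map fun k => [iV + k]).map fun w => (w, p0, p0)) ++
  (([iG], p0, pK) :: [[iB], [iF], wW 3 30, wW 3 386, wW 3 786, wW 3 1270, wW 4 942].map fun w => (w, pK, pK))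

/-- the inequations for `p0` -/
def tsN : List (List ℕ × ℕ × ℕ) := [([iA], 1, 1), ([iB], 1, 1)] ++
  (List.range 19).map fun i => ((rw20 (i + 1)).map fun a => iX + a, p0, p0)

/-- the word is not trivial -/
def neW (L : List ℕ) (w : List ℕ) : Bool := !(Nat.beq (vW L w 1) 1)
/-- the word fixes the point -/
def fixW (L : List ℕ) (w : List ℕ) : Bool := Nat.beq (vW L w pK) pK

/-- the involutions inverting `f` -/
def chkL (X : ℕ) (sol : List (ℕ × ℕ)) (L : List ℕ) : Bool := (List.range 1344).all fun i =>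
  !(eqc (mc (TJ.x i) (TJ.x i)) (mc (0, idP) (0, idP))) || (List.range 5).all fun a =>
    sol.any (fun p => Nat.beq p.1 a && Nat.beq p.2 i) || neW L (rep3 (X :: wW a i))

/-- the elements with a given square -/
def chkU (b cw : ℕ) (t : List ℕ → ℕ → List ℕ → Bool) (L : List ℕ) : Bool := (List.range 1344).all fun i =>
  !(eqc (mc (TJ.x i) (TJ.x (th i))) (mc (TJ.x cw) (0, idP))) || t L i (uW b i)

/-- test in the first case -/
def tA (L : List ℕ) (_ : ℕ) (u : List ℕ) : Bool :=
  neW L (rep5 (iA5 :: u)) && (neW L (rep3 (iA7 :: u)) && neW L (rep3 (iA4 :: u)))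
/-- test in the second case -/
def tB (sp : ℕ) (L : List ℕ) (i : ℕ) (u : List ℕ) : Bool :=
  (fixW L u || (Nat.beq i sp || neW L (rep5 (iB5 :: u)))) && (neW L (rep3 (iB7 :: u)) && neW L (rep3 (iB4 :: u)))
/-- test in the third case -/
def tF (L : List ℕ) (_ : ℕ) (u : List ℕ) : Bool := fixW L u

theorem th_ok : thOk = true := by decide +kernel

theorem chk0 : run 112 (slpQ ++ slpX ++ slpY) codes
    (fun L => cond (eqs 112 eqsY L) (vEq L tsE && vNe L tsN) false) = true := by decide +kernel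

theorem chk1 : run 112 (slpQ ++ slpX ++ slpY) codes (fun L => chkL iA [(3, 0)] L) = true := by decide +kernel

theorem chk2 : run 112 (slpQ ++ slpX ++ slpY) codes
    (fun L => chkL iB [(3, 30), (3, 386), (3, 786), (3, 1270), (4, 942)] L) = true := by decide +kernel

theorem chk3 : run 112 (slpQ ++ slpX ++ slpY) codes
    (fun L => chkU 1 0 tA L && (chkU 3 942 tF L && (chkU 1 786 (tB 1344) L && chkU 1 1270 (tB 1344) L))) = true := by
  decide +kernel

theorem chk4 : run 112 (slpQ ++ slpX ++ slpY) codes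
    (fun L => chkU 1 30 (tB 907) L && chkU 1 386 (tB 134) L) = true := by decide +kernel

end Cfsg.Agent.H837.JM.Chk
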