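import Cfsg.Agent.H837.JM.Nf

/-!
# The subgroups `L₂(11)` containing a group `11:5`, and the elements of order 4 (helper837)
-/

set_option autoImplicit false

open Cfsg

namespace Cfsg.Agent.H837.JM.Cls

open Cfsg.Agent.Lib Cfsg.Agent.Lib.F2MatGroup
open Cfsg.Agent.Lib.F2Mat (toVec)
open Cfsg.Agent.J4.Rep112 Cfsg.Agent.J4.LowerData Cfsg.Agent.J4.Lower
open Cfsg.Agent.H858.Data (slpX)
open Cfsg.Agent.H858.Elem (s j f r f_pow)
open Cfsg.Agent.H858.Loc5 (J F5)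
open Cfsg.Agent.H860.PairGroup Cfsg.Agent.H860.JData Cfsg.Agent.H860.JJ4
open Cfsg.Agent.SporadicStructure.M24El (idP)
open Cfsg.Agent.H837.JM.Dat Cfsg.Agent.H837.JM.Chk Cfsg.Agent.H837.JM.Base Cfsg.Agent.H837.JM.Nf

/-- the group `Spor.J4` -/
local notation "𝒢" => Cfsg.Spor.J4

theorem rep3_eq (w : List ℕ) : evG LY (rep3 w) = evG LY w ^ 3 := by
  rw [rep3, evG_append, evG_append]
  simp only [pow_succ, pow_zero, one_mul, mul_assoc]

theorem rep5_eq (w : List ℕ) : evG LY (rep5 w) = evG LY w ^ 5 := by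
  rw [rep5, evG_append, evG_append, evG_append, evG_append]
  simp only [pow_succ, pow_zero, one_mul, mul_assoc]

theorem bor {a b : Bool} (h : (!a || b) = true) (ha : a = true) : b = true := by
  subst ha; exact h

/-- the involutions inverting `f` -/
theorem chkL_sound {X : ℕ} {sol : List (ℕ × ℕ)}
    (h : run 112 (slpQ ++ slpX ++ slpY) codes (fun L => chkL X sol L) = true) {w : 𝒢} (hw : w * w = 1)
    (hf : w * f * w⁻¹ = f⁻¹) (h3 : (getG LY X * w) ^ 3 = 1) :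
    ∃ p ∈ sol, w = f ^ p.1 * (cJ p.2 * (r * r)) := by
  obtain ⟨L, hL, hk⟩ := run_LY h
  obtain ⟨a, ha, i, hi, h4, h5⟩ := exists_w hw hf
  have h6 := List.all_eq_true.1 hk i (List.mem_range.2 hi)
  have h7 : eqc (mc (TJ.x i) (TJ.x i)) (mc (0, idP) (0, idP)) = true := by
    by_contra h7
    rw [Bool.not_eq_true] at h7
    refine cJ_mul_ne hi hi (show (0 : ℕ) < 1344 by norm_num) ?_ h5
    rw [Tab.x_zero Cfsg.Agent.H860.JTab.tree]; exact h7
  have h8 := List.all_eq_true.1 (bor h6 h7) a (List.mem_range.2 ha)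
  rw [Bool.or_eq_true] at h8
  rcases h8 with h8 | h8
  · rw [List.any_eq_true] at h8
    obtain ⟨p, hp, h9⟩ := h8
    rw [Bool.and_eq_true, Nat.beq_eq, Nat.beq_eq] at h9
    exact ⟨p, hp, by rw [h9.1, h9.2]; exact h4⟩
  · exfalso
    apply neW_sound hL h8
    rw [rep3_eq, evG_cons, wW_eq ha, ← h4, h3]

/-- the elements with a given square -/
theorem chkU_sound {b k : ℕ} {t : List ℕ → ℕ → List ℕ → Bool} {L : List ℕ} (h : chkU b k t L = true) {u : 𝒢} {a : ℕ}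
    (ha : a < 5) (hb : b < 5) (hab : (3 * b) % 5 = a) (hk : k < 1344) (hu : u * u = f ^ a * (cJ k * (r * r)))
    (hf : u * f * u⁻¹ = f ^ 2) :
    ∃ i < 1344, u = evG LY (uW b i) ∧ t L i (uW b i) = true := by
  obtain ⟨b', hb', i, hi, h4, h5, h6⟩ := exists_u ha hk hu hf
  have hbb : b' = b := by omega
  subst hbb
  have h7 := List.all_eq_true.1 h i (List.mem_range.2 hi)
  have h8 : eqc (mc (TJ.x i) (TJ.x (th i))) (mc (TJ.x k) (0, idP)) = true := by
    by_contra h8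
    rw [Bool.not_eq_true] at h8
    exact cJ_mul_ne hi (th_step hi).1 hk h8 h6
  exact ⟨i, hi, by rw [uW_eq hb', h4], bor h7 h8⟩

/-- the element of class 11A -/
noncomputable def XA : 𝒢 := getG LY iA
/-- the element of class 11B -/
noncomputable def XB : 𝒢 := getG LY iB

theorem XA4 : getG LY iA4 = XA ^ 4 := by
  have h := eqY (p := ([iA4], [iA, iA, iA, iA])) (by decide +kernel)
  simp only [evG_cons, evG_nil, mul_one] at h
  rw [h]; simp only [XA, pow_succ, pow_zero, one_mul, mul_assoc]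
theorem XA5 : getG LY iA5 = XA ^ 5 := by
  have h := eqY (p := ([iA5], [iA4, iA])) (by decide +kernel)
  simp only [evG_cons, evG_nil, mul_one] at h
  rw [h, XA4]; rfl
theorem XA7 : getG LY iA7 = XA ^ 7 := by
  have h := eqY (p := ([iA7], [iA5, iA, iA])) (by decide +kernel)
  simp only [evG_cons, evG_nil, mul_one] at h
  rw [h, XA5]; simp only [XA, pow_succ, pow_zero, one_mul, mul_assoc]
theorem XB4 : getG LY iB4 = XB ^ 4 := by
  have h := eqY (p := ([iB4], [iB, iB, iB, iB])) (by decide +kernel)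
  simp only [evG_cons, evG_nil, mul_one] at h
  rw [h]; simp only [XB, pow_succ, pow_zero, one_mul, mul_assoc]
theorem XB5 : getG LY iB5 = XB ^ 5 := by
  have h := eqY (p := ([iB5], [iB4, iB])) (by decide +kernel)
  simp only [evG_cons, evG_nil, mul_one] at h
  rw [h, XB4]; rfl
theorem XB7 : getG LY iB7 = XB ^ 7 := by
  have h := eqY (p := ([iB7], [iB5, iB, iB])) (by decide +kernel)
  simp only [evG_cons, evG_nil, mul_one] at h
  rw [h, XB5]; simp only [XB, pow_succ, pow_zero, one_mul, mul_assoc]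

theorem XA_pow : XA ^ 11 = 1 := by
  have h := eqY (p := ([iA4, iA7], [])) (by decide +kernel)
  simp only [evG_cons, evG_nil, mul_one] at h
  rw [XA4, XA7, ← pow_add] at h
  exact h
theorem XB_pow : XB ^ 11 = 1 := by
  have h := eqY (p := ([iB4, iB7], [])) (by decide +kernel)
  simp only [evG_cons, evG_nil, mul_one] at h
  rw [XB4, XB7, ← pow_add] at h
  exact h
theorem f_XA : f * XA * f⁻¹ = XA ^ 3 := by
  have h := eqY (p := ([iF, iA], [iA, iA, iA, iF])) (by decide +kernel)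
  simp only [evG_cons, evG_nil, mul_one] at h
  rw [gf] at h
  rw [mul_inv_eq_iff_eq_mul, XA, h]; simp only [pow_succ, pow_zero, one_mul, mul_assoc]
theorem f_XB : f * XB * f⁻¹ = XB ^ 3 := by
  have h := eqY (p := ([iF, iB], [iB, iB, iB, iF])) (by decide +kernel)
  simp only [evG_cons, evG_nil, mul_one] at h
  rw [gf] at h
  rw [mul_inv_eq_iff_eq_mul, XB, h]; simp only [pow_succ, pow_zero, one_mul, mul_assoc]

/-! ### The theorems -/

/-- the stabilizer of the point -/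
noncomputable abbrev FK : Subgroup 𝒢 := Fx (toVec 112 pK)

theorem w_A {w : 𝒢} (hw : w * w = 1) (hf : w * f * w⁻¹ = f⁻¹) (h3 : (XA * w) ^ 3 = 1) :
    w = f ^ 3 * (cJ 0 * (r * r)) := by
  obtain ⟨p, hp, h⟩ := chkL_sound chk1 hw hf h3
  rw [List.mem_singleton] at hp
  subst hp
  exact h

theorem w_B {w : 𝒢} (hw : w * w = 1) (hf : w * f * w⁻¹ = f⁻¹) (h3 : (XB * w) ^ 3 = 1) :
    ∃ p ∈ [(3, 30), (3, 386), (3, 786), (3, 1270), (4, 942)], w = f ^ p.1 * (cJ p.2 * (r * r)) :=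
  chkL_sound chk2 hw hf h3

theorem tA_sound {L : List ℕ} (hL : List.Forall₂ (Codes 112) (LY.map rho) L) {i : ℕ} {u : List ℕ}
    (h : tA L i u = true) : (XA ^ 5 * evG LY u) ^ 5 ≠ 1 ∧ (XA ^ 7 * evG LY u) ^ 3 ≠ 1 ∧
      (XA ^ 4 * evG LY u) ^ 3 ≠ 1 := by
  unfold tA at h
  rw [Bool.and_eq_true, Bool.and_eq_true] at h
  obtain ⟨h1, h2, h3⟩ := h
  have k1 := neW_sound hL h1
  have k2 := neW_sound hL h2
  have k3 := neW_sound hL h3
  rw [rep5_eq, evG_cons, XA5] at k1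
  rw [rep3_eq, evG_cons, XA7] at k2
  rw [rep3_eq, evG_cons, XA4] at k3
  exact ⟨k1, k2, k3⟩

theorem tB_sound {sp : ℕ} {L : List ℕ} (hL : List.Forall₂ (Codes 112) (LY.map rho) L) {i : ℕ} {u : List ℕ}
    (h : tB sp L i u = true) : (evG LY u ∈ FK ∨ i = sp ∨ (XB ^ 5 * evG LY u) ^ 5 ≠ 1) ∧
      (XB ^ 7 * evG LY u) ^ 3 ≠ 1 ∧ (XB ^ 4 * evG LY u) ^ 3 ≠ 1 := by
  unfold tB at h
  rw [Bool.and_eq_true, Bool.and_eq_true, Bool.or_eq_true, Bool.or_eq_true] at h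
  obtain ⟨h1, h2, h3⟩ := h
  have k2 := neW_sound hL h2
  have k3 := neW_sound hL h3
  rw [rep3_eq, evG_cons, XB7] at k2
  rw [rep3_eq, evG_cons, XB4] at k3
  refine ⟨?_, k2, k3⟩
  rcases h1 with h1 | h1 | h1
  · exact Or.inl (fixW_sound hL h1)
  · exact Or.inr (Or.inl (Nat.eq_of_beq_eq_true h1))
  · right; right
    have k1 := neW_sound hL h1
    rwa [rep5_eq, evG_cons, XB5] at k1

theorem u_A {u : 𝒢} (hu : u * u = f ^ 3 * (cJ 0 * (r * r))) (hf : u * f * u⁻¹ = f ^ 2) :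
    (XA ^ 5 * u) ^ 5 ≠ 1 ∧ (XA ^ 7 * u) ^ 3 ≠ 1 ∧ (XA ^ 4 * u) ^ 3 ≠ 1 := by
  obtain ⟨L, hL, hk⟩ := run_LY chk3
  rw [Bool.and_eq_true] at hk
  obtain ⟨i, hi, h1, h2⟩ := chkU_sound hk.1 (by norm_num) (by norm_num) (by norm_num) (by norm_num) hu hf
  rw [h1]
  exact tA_sound hL h2

theorem u_B0 {u : 𝒢} (hu : u * u = f ^ 4 * (cJ 942 * (r * r))) (hf : u * f * u⁻¹ = f ^ 2) : u ∈ FK := by
  obtain ⟨L, hL, hk⟩ := run_LY chk3
  rw [Bool.and_eq_true, Bool.and_eq_true] at hk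
  obtain ⟨i, hi, h1, h2⟩ := chkU_sound hk.2.1 (by norm_num) (by norm_num) (by norm_num) (by norm_num) hu hf
  rw [h1]
  exact fixW_sound hL h2

/-- the two exceptional elements -/
def Sp (k : ℕ) (u : 𝒢) : Prop := (k = 30 ∧ u = f ^ 1 * (cJ 907 * r)) ∨ (k = 386 ∧ u = f ^ 1 * (cJ 134 * r))

theorem u_B {u : 𝒢} {k : ℕ} (hk : k ∈ [30, 386, 786, 1270]) (hu : u * u = f ^ 3 * (cJ k * (r * r)))
    (hf : u * f * u⁻¹ = f ^ 2) : (u ∈ FK ∨ Sp k u ∨ (XB ^ 5 * u) ^ 5 ≠ 1) ∧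
      (XB ^ 7 * u) ^ 3 ≠ 1 ∧ (XB ^ 4 * u) ^ 3 ≠ 1 := by
  simp only [List.mem_cons, List.not_mem_nil, or_false] at hk
  rcases hk with rfl | rfl | rfl | rfl
  · obtain ⟨L, hL, hk⟩ := run_LY chk4
    rw [Bool.and_eq_true] at hk
    obtain ⟨i, hi, h1, h2⟩ := chkU_sound hk.1 (by norm_num) (by norm_num) (by norm_num) (by norm_num) hu hf
    obtain ⟨h3, h4⟩ := tB_sound hL h2
    rw [← h1] at h3 h4
    refine ⟨h3.imp_right (Or.imp_left fun h => Or.inl ⟨rfl, ?_⟩), h4⟩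
    rw [h1, h, uW_eq (by norm_num)]
  · obtain ⟨L, hL, hk⟩ := run_LY chk4
    rw [Bool.and_eq_true] at hk
    obtain ⟨i, hi, h1, h2⟩ := chkU_sound hk.2 (by norm_num) (by norm_num) (by norm_num) (by norm_num) hu hf
    obtain ⟨h3, h4⟩ := tB_sound hL h2
    rw [← h1] at h3 h4
    refine ⟨h3.imp_right (Or.imp_left fun h => Or.inr ⟨rfl, ?_⟩), h4⟩
    rw [h1, h, uW_eq (by norm_num)]
  · obtain ⟨L, hL, hk⟩ := run_LY chk3
    rw [Bool.and_eq_true, Bool.and_eq_true, Bool.and_eq_true] at hk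
    obtain ⟨i, hi, h1, h2⟩ := chkU_sound hk.2.2.1 (by norm_num) (by norm_num) (by norm_num) (by norm_num) hu hf
    obtain ⟨h3, h4⟩ := tB_sound hL h2
    rw [← h1] at h3 h4
    exact ⟨h3.imp_right (Or.imp_left fun h => absurd h hi.ne), h4⟩
  · obtain ⟨L, hL, hk⟩ := run_LY chk3
    rw [Bool.and_eq_true, Bool.and_eq_true, Bool.and_eq_true] at hk
    obtain ⟨i, hi, h1, h2⟩ := chkU_sound hk.2.2.2 (by norm_num) (by norm_num) (by norm_num) (by norm_num) hu hf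
    obtain ⟨h3, h4⟩ := tB_sound hL h2
    rw [← h1] at h3 h4
    exact ⟨h3.imp_right (Or.imp_left fun h => absurd h hi.ne), h4⟩

/-! ### Fixed points -/

theorem tsE_get {t : List ℕ × ℕ × ℕ} (h : t ∈ tsE) : act (toVec 112 t.2.1) (evG LY t.1) = toVec 112 t.2.2 :=
  facts0.2.1 t h

theorem XB_fix : XB ∈ FK := by
  have h := tsE_get (t := ([iB], pK, pK)) (by unfold tsE; simp)
  simp only [evG_cons, evG_nil, mul_one] at h
  exact h

theorem f_fix : f ∈ FK := by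
  have h := tsE_get (t := ([iF], pK, pK)) (by unfold tsE; simp)
  simp only [evG_cons, evG_nil, mul_one] at h
  rw [gf] at h
  exact h

theorem w_fix {p : ℕ × ℕ} (hp : p ∈ [(3, 30), (3, 386), (3, 786), (3, 1270), (4, 942)]) :
    f ^ p.1 * (cJ p.2 * (r * r)) ∈ FK := by
  have h : ∀ p ∈ [(3, 30), (3, 386), (3, 786), (3, 1270), (4, 942)], p.1 < 5 ∧ (wW p.1 p.2, pK, pK) ∈ tsE := by
    intro p hp
    simp only [List.mem_cons, List.not_mem_nil, or_false] at hp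
    rcases hp with rfl | rfl | rfl | rfl | rfl <;> exact ⟨by norm_num, by unfold tsE; simp⟩
  obtain ⟨h1, h2⟩ := h p hp
  have h3 := tsE_get h2
  rw [wW_eq h1] at h3
  exact h3

end Cfsg.Agent.H837.JM.Cls
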