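import Cfsg.Agent.H837.JM.NLx
import Cfsg.Agent.H837.JM.Math
import Cfsg.Agent.S1703

/-!
# The Mathieu groups in `J4` (helper837)
-/

set_option autoImplicit false

open Cfsg

namespace Cfsg.Agent.H837.JM.Core

open Cfsg.Agent.J4.Pres
open Cfsg.Agent.H858.Elem (f r)
open Cfsg.Agent.H837.JM.Base Cfsg.Agent.H837.JM.Nf
open Cfsg.Agent.H837.JM.Cls Cfsg.Agent.H837.JM.Pnt Cfsg.Agent.H837.JM.NLx
open Cfsg.Agent.H860.JM

/-- the group `Spor.J4` -/
local notation "𝒢" => Cfsg.Spor.J4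

/-- generators of `L₂(11)` -/
structure LTup {G : Type*} [Group G] (a e w : G) : Prop where
  a11 : a ^ 11 = 1
  a1 : a ≠ 1
  e5 : e ^ 5 = 1
  e1 : e ≠ 1
  rel : e * a * e⁻¹ = a ^ 3
  w2 : w * w = 1
  we : w * e * w⁻¹ = e⁻¹
  aw : (a * w) ^ 3 = 1

theorem LTup.map {G H : Type*} [Group G] [Group H] {a e w : G} (h : LTup a e w) (φ : G →* H)
    (hφ : Function.Injective φ) : LTup (φ a) (φ e) (φ w) where
  a11 := by rw [← map_pow, h.a11, map_one]
  a1 := fun h1 => h.a1 (hφ (by rw [h1, map_one]))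
  e5 := by rw [← map_pow, h.e5, map_one]
  e1 := fun h1 => h.e1 (hφ (by rw [h1, map_one]))
  rel := by rw [← map_mul, ← map_inv, ← map_mul, h.rel, map_pow]
  w2 := by rw [← map_mul, h.w2, map_one]
  we := by rw [← map_mul, ← map_inv, ← map_mul, h.we, map_inv]
  aw := by rw [← map_mul, ← map_pow, h.aw, map_one]

/-- `a` is one of the standard elements or its inverse -/
def Std (X a : 𝒢) : Prop := (X = XA ∨ X = XB) ∧ (a = X ∨ a = X⁻¹)

theorem inv_cube {G : Type*} [Group G] {X w : G} (hw : w * w = 1) (h : (X⁻¹ * w) ^ 3 = 1) : (X * w) ^ 3 = 1 := by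
  have hwi : w⁻¹ = w := inv_eq_of_mul_eq_one_left hw
  have h1 : (w * X) ^ 3 = 1 := by
    have e : w * X = (X⁻¹ * w)⁻¹ := by rw [mul_inv_rev, inv_inv, hwi]
    rw [e, inv_pow, h, inv_one]
  have h2 : X * w = X * (w * X) * X⁻¹ := by group
  rw [h2, conj_pow, h1, mul_one, mul_inv_cancel]

theorem Std.pow {X a : 𝒢} (h : Std X a) : X ^ 11 = 1 ∧ X⁻¹ = X ^ 10 := by
  have h1 : X ^ 11 = 1 := by
    rcases h.1 with rfl | rfl
    · exact XA_pow
    · exact XB_pow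
  exact ⟨h1, inv_eq_of_mul_eq_one_right (by rw [← pow_succ']; exact h1)⟩

theorem Std.w {X a w : 𝒢} (h : Std X a) (hw : w * w = 1) (h3 : (a * w) ^ 3 = 1) : (X * w) ^ 3 = 1 := by
  rcases h.2 with rfl | rfl
  · exact h3
  · exact inv_cube hw h3

theorem pow_red {X : 𝒢} (h : X ^ 11 = 1) (n m : ℕ) (hnm : n % 11 = m) : X ^ n = X ^ m := by
  rw [← hnm]
  conv_lhs => rw [← Nat.mod_add_div n 11, pow_add, pow_mul, h, one_pow, mul_one]

/-- the involution -/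
noncomputable def w1 : 𝒢 := f ^ 4 * (cJ 942 * (r * r))

/-- elements of order 4 satisfying the `M11`-relation -/
theorem core7 {X a w u : 𝒢} (hX : Std X a) (h : LTup a f w) (hu : u * u = w) (hf : u * f * u⁻¹ = f ^ 2)
    (h7 : (a ^ 7 * u) ^ 3 = 1 ∨ (a ^ 4 * u) ^ 3 = 1) : X = XB ∧ w = w1 ∧ u ∈ FK := by
  have hXw := hX.w h.w2 h.aw
  obtain ⟨hp, hi⟩ := hX.pow
  have h7' : (X ^ 7 * u) ^ 3 = 1 ∨ (X ^ 4 * u) ^ 3 = 1 := by
    rcases hX.2 with h1 | h1
    · rw [h1] at h7; exact h7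
    · rw [h1, hi, ← pow_mul, ← pow_mul, pow_red hp (10 * 7) 4 rfl, pow_red hp (10 * 4) 7 rfl] at h7
      exact h7.symm
  rcases hX.1 with rfl | rfl
  · exfalso
    have h2 := w_A h.w2 h.we hXw
    obtain ⟨-, k7, k4⟩ := u_A (hu.trans h2) hf
    rcases h7' with h3 | h3
    · exact k7 h3
    · exact k4 h3
  · obtain ⟨p, hp1, h2⟩ := w_B h.w2 h.we hXw
    by_cases hp0 : p = (4, 942)
    · subst hp0
      exact ⟨rfl, h2, u_B0 (hu.trans h2) hf⟩
    · exfalso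
      have h4 : p.1 = 3 ∧ p.2 ∈ [30, 386, 786, 1270] := by
        simp only [List.mem_cons, List.not_mem_nil, or_false] at hp1
        rcases hp1 with rfl | rfl | rfl | rfl | rfl
        · exact ⟨rfl, by simp⟩
        · exact ⟨rfl, by simp⟩
        · exact ⟨rfl, by simp⟩
        · exact ⟨rfl, by simp⟩
        · exact absurd rfl hp0
      rw [h4.1] at h2
      obtain ⟨-, k7, k4⟩ := u_B h4.2 (hu.trans h2) hf
      rcases h7' with h3 | h3
      · exact k7 h3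
      · exact k4 h3

/-- elements of order 4 satisfying the `M22`-relation -/
theorem core5 {X a w u : 𝒢} (hX : Std X a) (h : LTup a f w) (hu : u * u = w) (hf : u * f * u⁻¹ = f ^ 2)
    (h5 : (a ^ 5 * u) ^ 5 = 1) (h6 : (a ^ 6 * u) ^ 5 = 1) :
    X = XB ∧ (u ∈ FK ∨ u = f ^ 1 * (cJ 907 * r) ∨ u = f ^ 1 * (cJ 134 * r)) := by
  have hXw := hX.w h.w2 h.aw
  obtain ⟨hp, hi⟩ := hX.pow
  have h5' : (X ^ 5 * u) ^ 5 = 1 := by
    rcases hX.2 with h1 | h1
    · rw [h1] at h5; exact h5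
    · rw [h1, hi, ← pow_mul, pow_red hp (10 * 6) 5 rfl] at h6
      exact h6
  rcases hX.1 with rfl | rfl
  · exfalso
    have h2 := w_A h.w2 h.we hXw
    exact (u_A (hu.trans h2) hf).1 h5'
  · refine ⟨rfl, ?_⟩
    obtain ⟨p, hp1, h2⟩ := w_B h.w2 h.we hXw
    by_cases hp0 : p = (4, 942)
    · subst hp0
      exact Or.inl (u_B0 (hu.trans h2) hf)
    · have h4 : p.1 = 3 ∧ p.2 ∈ [30, 386, 786, 1270] := by
        simp only [List.mem_cons, List.not_mem_nil, or_false] at hp1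
        rcases hp1 with rfl | rfl | rfl | rfl | rfl
        · exact ⟨rfl, by simp⟩
        · exact ⟨rfl, by simp⟩
        · exact ⟨rfl, by simp⟩
        · exact ⟨rfl, by simp⟩
        · exact absurd rfl hp0
      rw [h4.1] at h2
      rcases (u_B h4.2 (hu.trans h2) hf).1 with h3 | h3 | h3
      · exact Or.inl h3
      · rcases h3 with ⟨-, h3⟩ | ⟨-, h3⟩
        · exact Or.inr (Or.inl h3)
        · exact Or.inr (Or.inr h3)
      · exact absurd h5' h3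

/-- **normal form** -/
theorem exists_std {T : Type*} [Group T] {a e w : T} (ht : LTup a e w) {M S : Subgroup 𝒢} (h : NL M S)
    (i : S ≃* T) : ∃ (g : 𝒢) (φ : T →* 𝒢), Function.Injective φ ∧ φ.range = cj g S ∧ NL (cj g M) (cj g S) ∧
      φ e = f ∧ ∃ X, Std X (φ a) := by
  let φ0 : T →* 𝒢 := S.subtype.comp i.symm.toMonoidHom
  have hφ0 : Function.Injective φ0 := S.subtype_injective.comp i.symm.injective
  have ht0 := ht.map φ0 hφ0
  obtain ⟨g, X, hX, h1, h2⟩ := exists_nf ht0.a11 ht0.a1 ht0.e5 ht0.e1 ht0.rel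
  refine ⟨g, (MulAut.conj g).toMonoidHom.comp φ0, (MulAut.conj g).injective.comp hφ0, ?_,
    Cfsg.Agent.H837.JM.NLx.NL.cj h g, h1, X, hX, h2⟩
  have hr : φ0.range = S := by
    ext y
    constructor
    · rintro ⟨x, rfl⟩
      exact (i.symm x).2
    · intro hy
      exact ⟨i ⟨y, hy⟩, by show ((i.symm (i ⟨y, hy⟩) : S) : 𝒢) = y; rw [MulEquiv.symm_apply_apply]⟩
  rw [MonoidHom.range_comp, hr]

/-- a simple group fixing the point -/
theorem no_range {T : Type*} [Group T] {φ : T →* 𝒢} {M S : Subgroup 𝒢} (h : NL M S) (hS : φ.range = S)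
    {a e : T} (he : φ e = f) {X : 𝒢} (hX : Std X (φ a)) (hXB : X = XB) (hle : φ.range ≤ FK) : False := by
  refine no_point h ?_ ?_ (hS ▸ hle)
  · have h1 : φ a ∈ S := hS ▸ ⟨a, rfl⟩
    rcases hX.2 with h2 | h2
    · rw [← hXB, ← h2]; exact h1
    · rw [← hXB]
      rw [h2] at h1
      exact (Subgroup.inv_mem_iff S).1 h1
  · rw [← he, ← hS]; exact ⟨e, rfl⟩

theorem Std.mem {X a : 𝒢} (h : Std X a) (hXB : X = XB) : a ∈ FK := by
  rcases h.2 with h1 | h1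
  · rw [h1, hXB]; exact XB_fix
  · rw [h1, hXB]; exact FK.inv_mem XB_fix

/-! ### The Mathieu groups -/

/-- the elements of a group of permutations mapped into a subgroup -/
theorem range_le_of {T : Subgroup (Equiv.Perm GolayPt)} (φ : T →* 𝒢) (N : Subgroup 𝒢)
    (h : T ≤ (N.comap φ).map T.subtype) : φ.range ≤ N := by
  rintro _ ⟨x, rfl⟩
  obtain ⟨y, hy, h1⟩ := h x.2
  have h2 : y = x := Subtype.ext h1
  rw [← h2]; exact hy

theorem mem_of {T : Subgroup (Equiv.Perm GolayPt)} {φ : T →* 𝒢} {N : Subgroup 𝒢} {p : Equiv.Perm GolayPt}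
    (hp : p ∈ T) (h : φ ⟨p, hp⟩ ∈ N) : p ∈ (N.comap φ).map T.subtype := ⟨⟨p, hp⟩, h, rfl⟩

theorem ltup {T : Subgroup (Equiv.Perm GolayPt)} (hX : Math.X ∈ T) (hF : Math.F ∈ T) (hW : Math.W ∈ T) :
    LTup (⟨Math.X, hX⟩ : T) ⟨Math.F, hF⟩ ⟨Math.W, hW⟩ where
  a11 := Subtype.ext Math.X_pow
  a1 := fun h => Math.X_ne (congrArg Subtype.val h)
  e5 := Subtype.ext Math.F_pow
  e1 := fun h => Math.F_ne (congrArg Subtype.val h)
  rel := Subtype.ext Math.F_X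
  w2 := Subtype.ext Math.W_sq
  we := Subtype.ext Math.W_F
  aw := Subtype.ext Math.XW

/-- the element `U` -/
theorem coreU {T : Subgroup (Equiv.Perm GolayPt)} (hX : Math.X ∈ T) (hF : Math.F ∈ T) (hW : Math.W ∈ T)
    (hU : Math.U ∈ T) {φ : T →* 𝒢} (hφ : Function.Injective φ) (he : φ ⟨Math.F, hF⟩ = f) {X : 𝒢}
    (hs : Std X (φ ⟨Math.X, hX⟩)) : X = XB ∧ φ ⟨Math.W, hW⟩ = w1 ∧ φ ⟨Math.U, hU⟩ ∈ FK := by
  have h1 := (ltup hX hF hW).map φ hφ
  rw [he] at h1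
  refine core7 hs h1 ?_ ?_ (Or.inl ?_)
  · rw [← map_mul]; exact congrArg φ (Subtype.ext Math.U_sq)
  · rw [← he, ← map_mul, ← map_inv, ← map_mul, ← map_pow]; exact congrArg φ (Subtype.ext Math.U_F)
  · rw [← map_pow, ← map_mul, ← map_pow, ← map_one φ]; exact congrArg φ (Subtype.ext Math.U_rel)

/-- the element `V` -/
theorem coreV {T : Subgroup (Equiv.Perm GolayPt)} (hX : Math.X ∈ T) (hF : Math.F ∈ T) (hW : Math.W ∈ T)
    (hV : Math.V ∈ T) {φ : T →* 𝒢} (hφ : Function.Injective φ) (he : φ ⟨Math.F, hF⟩ = f) {X : 𝒢}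
    (hs : Std X (φ ⟨Math.X, hX⟩)) : X = XB ∧ φ ⟨Math.W, hW⟩ = w1 ∧ φ ⟨Math.V, hV⟩ ∈ FK := by
  have h1 := (ltup hX hF hW).map φ hφ
  rw [he] at h1
  refine core7 hs h1 ?_ ?_ (Or.inr ?_)
  · rw [← map_mul]; exact congrArg φ (Subtype.ext Math.V_sq)
  · rw [← he, ← map_mul, ← map_inv, ← map_mul, ← map_pow]; exact congrArg φ (Subtype.ext Math.V_F)
  · rw [← map_pow, ← map_mul, ← map_pow, ← map_one φ]; exact congrArg φ (Subtype.ext Math.V_rel)

/-- the element `K` -/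
theorem coreK {T : Subgroup (Equiv.Perm GolayPt)} (hF : Math.F ∈ T) (hW : Math.W ∈ T)
    (hK : Math.K ∈ T) {φ : T →* 𝒢} (he : φ ⟨Math.F, hF⟩ = f) (hw : φ ⟨Math.W, hW⟩ = w1) :
    φ ⟨Math.K, hK⟩ ∈ FK := by
  refine u_B0 ?_ ?_
  · rw [← map_mul]
    exact (congrArg φ (Subtype.ext Math.K_sq : (⟨Math.K, hK⟩ * ⟨Math.K, hK⟩ : T) = ⟨Math.W, hW⟩)).trans hw
  · rw [← he, ← map_mul, ← map_inv, ← map_mul, ← map_pow]; exact congrArg φ (Subtype.ext Math.K_F)

/-- **no maximal subgroup with socle `M11`** -/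
theorem excl_M11 : Excl Spor.M11 := by
  rintro M S h ⟨i⟩
  obtain ⟨g, φ, hφ, hr, h1, he, X, hs⟩ := exists_std (ltup Math.X_mem11 Math.F_mem11 Math.W_mem11) h i
  obtain ⟨hX, -, hU⟩ := coreU Math.X_mem11 Math.F_mem11 Math.W_mem11 Math.U_mem11 hφ he hs
  exact no_range h1 hr he hs hX (range_le_of φ FK (Math.le11 (mem_of Math.X_mem11 (hs.mem hX))
    (mem_of Math.U_mem11 hU)))

/-- **no maximal subgroup with socle `M12`** -/
theorem excl_M12 : Excl Spor.M12 := by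
  rintro M S h ⟨i⟩
  obtain ⟨g, φ, hφ, hr, h1, he, X, hs⟩ := exists_std (ltup Math.X_mem12 Math.F_mem12 Math.W_mem12) h i
  obtain ⟨hX, -, hU⟩ := coreU Math.X_mem12 Math.F_mem12 Math.W_mem12 Math.U_mem12 hφ he hs
  obtain ⟨-, -, hV⟩ := coreV Math.X_mem12 Math.F_mem12 Math.W_mem12 Math.V_mem12 hφ he hs
  exact no_range h1 hr he hs hX (range_le_of φ FK (Math.le12 (mem_of Math.X_mem12 (hs.mem hX))
    (mem_of Math.U_mem12 hU) (mem_of Math.V_mem12 hV)))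

/-- **no maximal subgroup with socle `M23`** -/
theorem excl_M23 : Excl Spor.M23 := by
  rintro M S h ⟨i⟩
  obtain ⟨g, φ, hφ, hr, h1, he, X, hs⟩ := exists_std (ltup Math.X_mem23 Math.F_mem23 Math.W_mem23) h i
  obtain ⟨hX, hw, hV⟩ := coreV Math.X_mem23 Math.F_mem23 Math.W_mem23 Math.V_mem23 hφ he hs
  have hK := coreK Math.F_mem23 Math.W_mem23 Math.K_mem23 he hw
  exact no_range h1 hr he hs hX (range_le_of φ FK (Math.le23 (mem_of Math.X_mem23 (hs.mem hX))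
    (mem_of Math.V_mem23 hV) (mem_of Math.K_mem23 hK)))

/-- **no maximal subgroup with socle `M24`** -/
theorem excl_M24 : Excl M24 := by
  rintro M S h ⟨i⟩
  obtain ⟨g, φ, hφ, hr, h1, he, X, hs⟩ := exists_std (ltup Math.X_mem24 Math.F_mem24 Math.W_mem24) h i
  obtain ⟨hX, hw, hU⟩ := coreU Math.X_mem24 Math.F_mem24 Math.W_mem24 Math.U_mem24 hφ he hs
  obtain ⟨-, -, hV⟩ := coreV Math.X_mem24 Math.F_mem24 Math.W_mem24 Math.V_mem24 hφ he hs
  have hK := coreK Math.F_mem24 Math.W_mem24 Math.K_mem24 he hw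
  exact no_range h1 hr he hs hX (range_le_of φ FK (Math.le24 (mem_of Math.X_mem24 (hs.mem hX))
    (mem_of Math.U_mem24 hU) (mem_of Math.V_mem24 hV) (mem_of Math.K_mem24 hK)))

end Cfsg.Agent.H837.JM.Core
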