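import Cfsg.Agent.H837.JM.Core
import Cfsg.Agent.H265.JM.PslGens

/-!
# The group `L₂(11)` in `J4` (helper837)
-/

set_option autoImplicit false

open Cfsg

namespace Cfsg.Agent.H837.JM.L211

open Matrix Cfsg.Agent.H911.SLTwo
open Cfsg.Agent.J4.Pres
open Cfsg.Agent.H858.Elem (f r)
open Cfsg.Agent.H837.JM.Dat Cfsg.Agent.H837.JM.Base Cfsg.Agent.H837.JM.Nf
open Cfsg.Agent.H837.JM.Cls Cfsg.Agent.H837.JM.Pnt Cfsg.Agent.H837.JM.NLx Cfsg.Agent.H837.JM.Core
open Cfsg.Agent.H860.JM

/-- the group `Spor.J4` -/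
local notation "𝒢" => Cfsg.Spor.J4

theorem prime11 : Nat.Prime 11 := by norm_num

local instance fact11 : Fact (Nat.Prime 11) := ⟨prime11⟩

/-- the group `SL₂(11)` -/
abbrev SS := SpecialLinearGroup (Fin 2) (ZMod 11)
/-- the group `PSL₂(11)` -/
abbrev TT := ProjectiveSpecialLinearGroup (Fin 2) (ZMod 11)

/-- the projection -/
def pr : SS →* TT := QuotientGroup.mk' _

theorem pr_surjective : Function.Surjective pr := QuotientGroup.mk'_surjective _

theorem pr_neg_one : pr (-1) = 1 := by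
  rw [pr, QuotientGroup.mk'_apply, QuotientGroup.eq_one_iff, Matrix.SpecialLinearGroup.mem_center_iff]
  refine ⟨-1, by decide, ?_⟩
  ext i j
  simp [Matrix.scalar_apply, Matrix.diagonal_apply, Matrix.one_apply]
  split <;> simp

/-- the unit 5 -/
def five : (ZMod 11)ˣ := ⟨5, 9, by decide, by decide⟩

theorem pr_ne {g : SS} (h1 : g.1 0 1 ≠ 0 ∨ g.1 0 0 ≠ g.1 1 1) : pr g ≠ 1 := by
  intro h
  rw [pr, QuotientGroup.mk'_apply, QuotientGroup.eq_one_iff, Matrix.SpecialLinearGroup.mem_center_iff] at h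
  obtain ⟨r, -, hr⟩ := h
  rcases h1 with h1 | h1
  · apply h1
    rw [← hr]
    simp
  · apply h1
    rw [← hr]
    simp

theorem ltup11 : LTup (pr (U 1)) (pr (hh five)) (pr ww) where
  a11 := by
    rw [← map_pow, U_pow]
    have : ((11 : ℕ) : ZMod 11) * 1 = 0 := by decide
    rw [this, U_zero, map_one]
  a1 := by
    apply pr_ne
    left
    rw [U01]
    exact one_ne_zero
  e5 := by
    rw [← map_pow]
    have h1 : (hh five : SS) ^ 5 = 1 := by
      rw [pow_succ, pow_succ, pow_succ, pow_succ, pow_one]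
      apply ext' <;> decide
    rw [h1, map_one]
  e1 := by
    apply pr_ne
    right
    rw [hh00, hh11]
    decide
  rel := by
    rw [← map_mul, ← map_inv, ← map_mul, ← map_pow, hU, U_pow]
    congr 1
  w2 := by
    rw [← map_mul]
    have h1 : (ww : SS) * ww = -1 := by
      apply ext' <;> decide
    rw [h1, pr_neg_one]
  we := by
    rw [← map_mul, ← map_inv, ← map_inv, ← map_mul]
    congr 1
    apply ext' <;> decide
  aw := by
    rw [← map_mul, ← map_pow]
    have h1 : ((U 1 : SS) * ww) ^ 3 = 1 := by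
      rw [pow_succ, pow_two]
      apply ext' <;> decide
    rw [h1, map_one]

theorem gen11 {H : Subgroup TT} (ha : pr (U 1) ∈ H) (hw : pr ww ∈ H) : H = ⊤ := by
  have h1 : H.comap pr = ⊤ := Cfsg.Agent.H265.JM.PslGens.gen (p := 11) ha hw
  rw [eq_top_iff]
  rintro x -
  obtain ⟨g, rfl⟩ := pr_surjective x
  have : g ∈ H.comap pr := by rw [h1]; exact Subgroup.mem_top _
  exact this

theorem range_le11 {φ : TT →* 𝒢} {N : Subgroup 𝒢} (ha : φ (pr (U 1)) ∈ N) (hw : φ (pr ww) ∈ N) : φ.range ≤ N := by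
  have h1 : N.comap φ = ⊤ := gen11 ha hw
  rintro _ ⟨x, rfl⟩
  have : x ∈ N.comap φ := by rw [h1]; exact Subgroup.mem_top _
  exact this

/-- **no maximal subgroup with socle `L₂(11)`** -/
theorem excl_L211 {F : Type} [Field F] [Fintype F] (h11 : Fintype.card F = 11) :
    Excl (ProjectiveSpecialLinearGroup (Fin 2) F) := by
  rintro M S h ⟨i⟩
  have e1 : TT ≃* ProjectiveSpecialLinearGroup (Fin 2) F :=
    LieClassical.FieldTransfer.pslCongr (ZMod.ringEquivOfPrime F prime11 h11)
  obtain ⟨g, φ, hφ, hr, h1, he, X, hs⟩ := exists_std ltup11 h (i.trans e1.symm)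
  have ht := ltup11.map φ hφ
  rw [he] at ht
  have hw3 := hs.w ht.w2 ht.aw
  rcases hs.1 with hX | hX
  · rw [hX] at hw3
    have hw := w_A ht.w2 ht.we hw3
    have hJ : cJ 16 ∈ Cfsg.Agent.H858.Loc5.J := cJ_mem (by norm_num)
    have h2 : φ.range ≤ Subgroup.centralizer ({cJ 16} : Set 𝒢) := by
      apply range_le11
      · rw [Subgroup.mem_centralizer_singleton_iff]
        have h3 : XA * cJ 16 = cJ 16 * XA := tau_XA.symm
        rcases hs.2 with h4 | h4
        · rw [h4, hX, h3]
        · rw [h4, hX]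
          have h5 : Commute XA (cJ 16) := h3
          exact h5.inv_left.eq
      · rw [Subgroup.mem_centralizer_singleton_iff, hw, cJ_zero, one_mul]
        have h3 : Commute (f ^ 3) (cJ 16) := (show Commute f (cJ 16) from (J_f hJ).symm).pow_left 3
        have h4 : Commute (r * r) (cJ 16) := r2_J hJ
        exact (h3.mul_left h4).eq
    have h3 : cJ 16 ∈ Subgroup.centralizer ((cj g S : Subgroup 𝒢) : Set 𝒢) := by
      rw [Subgroup.mem_centralizer_iff]
      intro y hy
      rw [← hr] at hy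
      exact Subgroup.mem_centralizer_singleton_iff.1 (h2 hy)
    rw [h1.cent, Subgroup.mem_bot] at h3
    exact cJ16_ne h3
  · rw [hX] at hw3
    obtain ⟨p, hp, hw⟩ := w_B ht.w2 ht.we hw3
    exact no_range h1 hr he hs hX (range_le11 (hs.mem hX) (by rw [hw]; exact w_fix hp))

end Cfsg.Agent.H837.JM.L211
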