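import Cfsg.Agent.H837.JM.Core

/-!
# The maximal subgroups `M22:2` of `J4` (helper837)
-/

set_option autoImplicit false

open Cfsg

namespace Cfsg.Agent.H837.JM.MM22

open Cfsg.Agent.J4.Pres
open Cfsg.Agent.H858.Elem (f r)
open Cfsg.Agent.H837.JM.Dat Cfsg.Agent.H837.JM.Base Cfsg.Agent.H837.JM.Nf
open Cfsg.Agent.H837.JM.Cls Cfsg.Agent.H837.JM.Pnt Cfsg.Agent.H837.JM.NLx Cfsg.Agent.H837.JM.Core
open Cfsg.Agent.H860.JM
open Cfsg.Agent.Lib.F2MatGroup

/-- the group `Spor.J4` -/
local notation "𝒢" => Cfsg.Spor.J4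

/-- the first exceptional element -/
noncomputable def u1 : 𝒢 := f ^ 1 * (cJ 907 * r)
/-- the second exceptional element -/
noncomputable def u2 : 𝒢 := f ^ 1 * (cJ 134 * r)

theorem v_XB : cJ 170 * XB = XB * cJ 170 := by
  have h := eqY (p := (jW 170 ++ [iB], iB :: jW 170)) (by decide +kernel)
  rw [evG_append, evG_cons, evG_cons, evG_nil, mul_one] at h
  exact h

theorem v_u : cJ 170 * u1 = u2 * cJ 170 := by
  have h := eqY (p := (jW 170 ++ (iF :: (jW 907 ++ [ir])), (iF :: (jW 134 ++ [ir])) ++ jW 170)) (by decide +kernel)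
  simp only [evG_append, evG_cons, evG_nil, mul_one] at h
  rw [gf, gr] at h
  rw [u1, u2, pow_one, cJ, cJ, cJ]
  exact h

/-- the standard subgroup -/
noncomputable def S0 : Subgroup 𝒢 := Subgroup.closure {XB, u1}

theorem cj_S0 : cj (cJ 170) S0 = Subgroup.closure {XB, u2} := by
  rw [S0, cj, MonoidHom.map_closure, Set.image_pair]
  have h1 : (MulAut.conj (cJ 170)).toMonoidHom XB = XB := by
    show cJ 170 * XB * (cJ 170)⁻¹ = XB
    rw [v_XB, mul_assoc, mul_inv_cancel, mul_one]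
  have h2 : (MulAut.conj (cJ 170)).toMonoidHom u1 = u2 := by
    show cJ 170 * u1 * (cJ 170)⁻¹ = u2
    rw [v_u, mul_assoc, mul_inv_cancel, mul_one]
  rw [h1, h2]

/-- the range is generated by the images of `X` and `K` -/
theorem range_eq {φ : Spor.M22 →* 𝒢} :
    φ.range = Subgroup.closure {φ ⟨Math.X, Math.X_mem22⟩, φ ⟨Math.K, Math.K_mem22⟩} := by
  apply le_antisymm
  · refine range_le_of φ _ (Math.le22 (mem_of Math.X_mem22 ?_) (mem_of Math.K_mem22 ?_))
    · exact Subgroup.subset_closure (Set.mem_insert _ _)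
    · exact Subgroup.subset_closure (Set.mem_insert_of_mem _ rfl)
  · rw [Subgroup.closure_le]
    rintro _ (rfl | rfl)
    · exact ⟨_, rfl⟩
    · exact ⟨_, rfl⟩

theorem closure_inv {G : Type*} [Group G] (a b : G) : Subgroup.closure {a⁻¹, b} = Subgroup.closure {a, b} := by
  apply le_antisymm
  · rw [Subgroup.closure_le]
    rintro _ (rfl | rfl)
    · exact Subgroup.inv_mem _ (Subgroup.subset_closure (Set.mem_insert _ _))
    · exact Subgroup.subset_closure (Set.mem_insert_of_mem _ rfl)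
  · rw [Subgroup.closure_le]
    rintro x (h | h)
    · rw [h]
      have h1 : a⁻¹ ∈ Subgroup.closure {a⁻¹, b} := Subgroup.subset_closure (Set.mem_insert _ _)
      exact (Subgroup.inv_mem_iff _).1 h1
    · exact Subgroup.subset_closure (Set.mem_insert_of_mem _ h)

theorem exists_S0 {M S : Subgroup 𝒢} (h : NL M S) (hi : Nonempty (S ≃* Spor.M22)) : ∃ g : 𝒢, cj g S = S0 := by
  obtain ⟨i⟩ := hi
  obtain ⟨g, φ, hφ, hr, h1, he, X, hs⟩ := exists_std (ltup Math.X_mem22 Math.F_mem22 Math.W_mem22) h i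
  have ht := (ltup Math.X_mem22 Math.F_mem22 Math.W_mem22).map φ hφ
  rw [he] at ht
  obtain ⟨hX, h5⟩ := core5 (u := φ ⟨Math.K, Math.K_mem22⟩) hs ht
    (by rw [← map_mul]; exact congrArg φ (Subtype.ext Math.K_sq))
    (by rw [← he, ← map_mul, ← map_inv, ← map_mul, ← map_pow]; exact congrArg φ (Subtype.ext Math.K_F))
    (by rw [← map_pow, ← map_mul, ← map_pow, ← map_one φ]; exact congrArg φ (Subtype.ext Math.K_rel5))
    (by rw [← map_pow, ← map_mul, ← map_pow, ← map_one φ]; exact congrArg φ (Subtype.ext Math.K_rel6))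
  have hc : ∀ u : 𝒢, φ ⟨Math.K, Math.K_mem22⟩ = u → cj g S = Subgroup.closure {XB, u} := by
    intro u hu
    rw [← hr, range_eq, hu]
    rcases hs.2 with h2 | h2
    · rw [h2, hX]
    · rw [h2, hX, closure_inv]
  rcases h5 with h5 | h5 | h5
  · exfalso
    exact no_range h1 hr he hs hX (range_le_of φ FK (Math.le22 (mem_of Math.X_mem22 (hs.mem hX))
      (mem_of Math.K_mem22 h5)))
  · exact ⟨g, hc u1 h5⟩
  · refine ⟨(cJ 170)⁻¹ * g, ?_⟩
    rw [← cj_cj, hc u2 h5, ← cj_S0, cj_inv_cj]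

/-- `J4` is simple -/
theorem simple : IsSimpleGroup 𝒢 := (Cfsg.Agent.S1703.result : Cfsg.IsJ4 Cfsg.Spor.J4).1

theorem eq_norm {M S : Subgroup 𝒢} (h : NL M S) : M = Subgroup.normalizer (S : Set 𝒢) := by
  rcases eq_or_lt_of_le h.norm with h1 | h1
  · exact h1
  · exfalso
    have h2 := h.coatom.2 _ h1
    have hn : S.Normal := Subgroup.normalizer_eq_top_iff.1 h2
    have hs := simple
    rcases hn.eq_bot_or_eq_top with h3 | h3
    · have := h.simple
      have h4 : Nontrivial S := inferInstance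
      rw [h3] at h4
      exact not_nontrivial _ h4
    · apply h.coatom.1
      rw [eq_top_iff, ← h3]
      exact h.le

/-- **one class of maximal subgroups with socle `M22`** -/
theorem one_M22 : OneCl Spor.M22 := by
  intro M S M' S' h h' hi hi'
  obtain ⟨g, hg⟩ := exists_S0 h hi
  obtain ⟨g', hg'⟩ := exists_S0 h' hi'
  refine ⟨g'⁻¹ * g, ?_⟩
  have h1 : S' = cj (g'⁻¹ * g) S := by
    rw [← cj_cj, hg, ← hg', cj_inv_cj]
  rw [eq_norm h, eq_norm h', h1, normalizer_cj]

end Cfsg.Agent.H837.JM.MM22
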