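import Cfsg.Agent.H837.JM.Pnt
import Cfsg.Agent.H860.JM.Cj
import Cfsg.Agent.H860.JM.Defs

/-!
# Maximal subgroups with a simple normal subgroup fixing a point (helper837)
-/

set_option autoImplicit false

open Cfsg

namespace Cfsg.Agent.H837.JM.NLx

open Cfsg.Agent.J4.Pres
open Cfsg.Agent.H858.Elem (f)
open Cfsg.Agent.H858.FixJ4 (B)
open Cfsg.Agent.H858.VK (rho_injective mem_B phi_norm)
open Cfsg.Agent.J4.Invol (EJ)
open Cfsg.Agent.H837.JM.Dat Cfsg.Agent.H837.JM.Base Cfsg.Agent.H837.JM.Nf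
open Cfsg.Agent.H837.JM.Cls Cfsg.Agent.H837.JM.Pnt
open Cfsg.Agent.H860.JM

/-- the group `Spor.J4` -/
local notation "𝒢" => Cfsg.Spor.J4

theorem cj_mono {G : Type*} [Group G] (g : G) {P Q : Subgroup G} (h : P ≤ Q) : cj g P ≤ cj g Q :=
  Subgroup.map_mono h

theorem cj_inv_cj {G : Type*} [Group G] (g : G) (P : Subgroup G) : cj g⁻¹ (cj g P) = P := by
  rw [cj_cj, inv_mul_cancel, cj_eq_iff]; exact Subgroup.one_mem _

theorem cj_cj_inv {G : Type*} [Group G] (g : G) (P : Subgroup G) : cj g (cj g⁻¹ P) = P := by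
  rw [cj_cj, mul_inv_cancel, cj_eq_iff]; exact Subgroup.one_mem _

theorem cj_top {G : Type*} [Group G] (g : G) : cj g (⊤ : Subgroup G) = ⊤ := by
  rw [eq_top_iff]
  intro x _
  rw [mem_cj]; exact Subgroup.mem_top _

theorem cj_bot {G : Type*} [Group G] (g : G) : cj g (⊥ : Subgroup G) = ⊥ := by
  rw [eq_bot_iff]
  intro x hx
  rw [mem_cj, Subgroup.mem_bot] at hx
  rw [Subgroup.mem_bot]
  have : x = g * (g⁻¹ * x * g) * g⁻¹ := by group
  rw [this, hx]; group

/-- the isomorphism of a subgroup and its conjugate -/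
theorem cj_equiv {G : Type*} [Group G] (g : G) (P : Subgroup G) : Nonempty (P ≃* cj g P) :=
  ⟨P.equivMapOfInjective (MulAut.conj g).toMonoidHom (MulAut.conj g).injective⟩

theorem isMulComm_of_equiv {A C : Type*} [Group A] [Group C] (e : A ≃* C) (h : IsMulCommutative A) :
    IsMulCommutative C := by
  refine ⟨⟨fun a b => ?_⟩⟩
  have h1 := h.1.1 (e.symm a) (e.symm b)
  rw [← map_mul, ← map_mul] at h1
  exact e.symm.injective h1

theorem NL.cj {M S : Subgroup 𝒢} (h : NL M S) (g : 𝒢) : NL (cj g M) (cj g S) where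
  coatom := by
    constructor
    · intro h1
      apply h.coatom.1
      have := congrArg (Cfsg.Agent.H860.JM.cj g⁻¹) h1
      rwa [cj_inv_cj, cj_top] at this
    · intro K hK
      have h1 : M < Cfsg.Agent.H860.JM.cj g⁻¹ K := by
        refine lt_of_le_of_ne ?_ ?_
        · rw [← cj_inv_cj g M]; exact cj_mono _ hK.le
        · intro h2
          apply hK.ne
          rw [h2, cj_cj_inv]
      have h2 := h.coatom.2 _ h1
      have h3 := congrArg (Cfsg.Agent.H860.JM.cj g) h2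
      rwa [cj_cj_inv, cj_top] at h3
  le := cj_mono g h.le
  norm := by rw [normalizer_cj]; exact cj_mono g h.norm
  simple := by
    obtain ⟨e⟩ := cj_equiv g S
    have := h.simple
    have : Nontrivial (Cfsg.Agent.H860.JM.cj g S) := e.symm.toEquiv.nontrivial
    exact IsSimpleGroup.isSimpleGroup_of_surjective e.toMonoidHom e.surjective
  nab := by
    obtain ⟨e⟩ := cj_equiv g S
    exact fun h1 => h.nab (isMulComm_of_equiv e.symm h1)
  cent := by rw [centralizer_cj, h.cent, cj_bot]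

/-! ### The point -/

/-- the point -/
noncomputable def PK : Subgroup 𝒢 := cj G1⁻¹ EJ

theorem FK_eq : FK = cj G1⁻¹ B := by
  ext g
  rw [mem_FK, mem_cj, inv_inv]

theorem EJ_sq {a : 𝒢} (ha : a ∈ EJ) : a * a = 1 := Cfsg.Agent.J4.Invol.EJ_sq rho_injective a ha
theorem EJ_comm {a b : 𝒢} (ha : a ∈ EJ) (hb : b ∈ EJ) : a * b = b * a :=
  Cfsg.Agent.J4.Invol.EJ_comm rho_injective a b ha hb

theorem B_le : B ≤ Subgroup.normalizer (EJ : Set 𝒢) := by
  intro x hx
  obtain ⟨e, he, k, rfl⟩ := mem_B.1 hx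
  exact Subgroup.mul_mem _ (Subgroup.le_normalizer he) (phi_norm ⟨k, rfl⟩)

theorem EJ_le : EJ ≤ B := fun e he => mem_B.2 ⟨e, he, 1, by rw [map_one, mul_one]⟩

theorem FK_le : FK ≤ Subgroup.normalizer (PK : Set 𝒢) := by
  rw [FK_eq, PK, normalizer_cj]; exact cj_mono _ B_le

theorem PK_le : PK ≤ FK := by
  rw [FK_eq, PK]; exact cj_mono _ EJ_le

theorem PK_comm {a b : 𝒢} (ha : a ∈ PK) (hb : b ∈ PK) : a * b = b * a := by
  rw [PK, mem_cj, inv_inv] at ha hb
  have h := EJ_comm ha hb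
  have h1 : G1 * (a * b) * G1⁻¹ = G1 * (b * a) * G1⁻¹ := by
    calc G1 * (a * b) * G1⁻¹ = G1 * a * G1⁻¹ * (G1 * b * G1⁻¹) := by group
      _ = G1 * b * G1⁻¹ * (G1 * a * G1⁻¹) := h
      _ = G1 * (b * a) * G1⁻¹ := by group
  exact mul_left_cancel (mul_right_cancel h1)

theorem PK_ne : PK ≠ ⊥ := by
  intro h
  have h1 := congrArg (cj G1) h
  rw [PK, cj_cj_inv, cj_bot] at h1
  have h2 : Cfsg.Agent.H858.Data.V 270 ∈ EJ := Cfsg.Agent.H858.Data.V_mem 270
  rw [h1, Subgroup.mem_bot] at h2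
  exact V270_ne h2

theorem FK_ne : FK ≠ ⊤ := by
  intro h
  have h1 := congrArg (cj G1) h
  rw [FK_eq, cj_cj_inv, cj_top] at h1
  have h2 := Cfsg.Agent.H858.FixJ4.index_B
  rw [h1, Subgroup.index_top] at h2
  exact absurd h2 (by norm_num)

/-- **a simple subgroup containing `XB`, `f` which fixes the point does not give a maximal subgroup** -/
theorem no_point {M S : Subgroup 𝒢} (h : NL M S) (hX : XB ∈ S) (hf : f ∈ S) (hS : S ≤ FK) : False := by
  have hM : M ≤ FK := by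
    intro m hm
    have h1 := Subgroup.mem_normalizer_iff.1 (h.norm hm)
    exact mem_FK_of (hS ((h1 XB).1 hX)) (hS ((h1 f).1 hf))
  have hM2 : M = FK := by
    rcases eq_or_lt_of_le hM with h1 | h1
    · exact h1
    · exact absurd (h.coatom.2 _ h1) FK_ne
  have hinf : S ⊓ PK = ⊥ := by
    have hsimp := h.simple
    have hn : (PK.subgroupOf S).Normal := by
      refine ⟨fun p hp s => ?_⟩
      rw [Subgroup.mem_subgroupOf] at hp ⊢
      exact (Subgroup.mem_normalizer_iff.1 (FK_le (hS s.2)) _).1 hp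
    rcases hn.eq_bot_or_eq_top with h1 | h1
    · rw [Subgroup.subgroupOf_eq_bot] at h1
      rw [inf_comm]; exact disjoint_iff.1 h1
    · exfalso
      apply h.nab
      rw [Subgroup.subgroupOf_eq_top] at h1
      exact ⟨⟨fun a b => Subtype.ext (PK_comm (h1 a.2) (h1 b.2))⟩⟩
  apply PK_ne
  rw [eq_bot_iff, ← h.cent]
  intro v hv
  rw [Subgroup.mem_centralizer_iff]
  intro s hs
  have h1 : v * s * v⁻¹ * s⁻¹ ∈ S ⊓ PK := by
    refine Subgroup.mem_inf.2 ⟨?_, ?_⟩
    · have hvM : v ∈ M := by rw [hM2]; exact PK_le hv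
      exact S.mul_mem ((Subgroup.mem_normalizer_iff.1 (h.norm hvM) s).1 hs) (S.inv_mem hs)
    · have h2 := (Subgroup.mem_normalizer_iff.1 (FK_le (hS hs)) _).1 (PK.inv_mem hv)
      have e : v * s * v⁻¹ * s⁻¹ = v * (s * v⁻¹ * s⁻¹) := by group
      rw [e]; exact PK.mul_mem hv h2
  rw [hinf, Subgroup.mem_bot] at h1
  exact (mul_inv_eq_iff_eq_mul.1 (mul_inv_eq_one.1 h1)).symm

end Cfsg.Agent.H837.JM.NLx
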