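import Cfsg.Agent.H837.JM.Base

/-!
# The elements of `N(⟨f⟩)` (helper837)
-/

set_option autoImplicit false

open Cfsg

namespace Cfsg.Agent.H837.JM.Nf

open Cfsg.Agent.Lib Cfsg.Agent.Lib.F2MatGroup
open Cfsg.Agent.Lib.F2Mat (toVec)
open Cfsg.Agent.J4.Rep112 Cfsg.Agent.J4.LowerData Cfsg.Agent.J4.Lower
open Cfsg.Agent.J4.Classes (psi hyp)
open Cfsg.Agent.H858.VK (rho_injective)
open Cfsg.Agent.H858.Elem (s j f r f_pow r_mul_f r_pow r_mul_s f_mul_s j_mul_f)
open Cfsg.Agent.H858.Loc5 (J F5)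
open Cfsg.Agent.H860.PairGroup Cfsg.Agent.H860.JData Cfsg.Agent.H860.JJ4
open Cfsg.Agent.H860.Orb (tget)
open Cfsg.Agent.SporadicStructure.M24El (idP)
open Cfsg.Agent.H837.JM.Dat Cfsg.Agent.H837.JM.Chk Cfsg.Agent.H837.JM.Base

/-- the group `Spor.J4` -/
local notation "𝒢" => Cfsg.Spor.J4

instance finite_J4 : Finite 𝒢 := Cfsg.Agent.H858.FixJ4.facts.1

theorem cJ_mem {i : ℕ} (hi : i < 1344) : cJ i ∈ J := by
  have h1 : rho (cJ i) ∈ J.map rho := by
    rw [map_J, rho_cJ hi]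
    exact Tab.x_mem hyp Cfsg.Agent.H860.JTab.tree (show i < TJ.n from hi)
  obtain ⟨c, hc, h2⟩ := h1
  rw [← rho_injective h2]; exact hc

theorem J_f {c : 𝒢} (hc : c ∈ J) : c * f = f * c := by
  have h1 := Cfsg.Agent.H858.Loc5.J_le_C hc
  rw [Subgroup.mem_centralizer_iff] at h1
  exact (h1 f (Subgroup.mem_zpowers f)).symm

theorem f_ord : orderOf f = 5 := by
  have : Fact (Nat.Prime 5) := ⟨by norm_num⟩
  exact orderOf_eq_prime f_pow Cfsg.Agent.H858.Loc5.f_ne

/-- the centralizer of `f` -/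
theorem exists_fc {g : 𝒢} (hg : g * f = f * g) : ∃ a < 5, ∃ c ∈ J, g = f ^ a * c := by
  have h1 : g ∈ Subgroup.centralizer (F5 : Set 𝒢) := by
    rw [Subgroup.mem_centralizer_iff]
    rintro _ ⟨n, rfl⟩
    have h : Commute g f := hg
    exact (h.zpow_right n).symm.eq
  rw [← Cfsg.Agent.H858.Loc5.directProduct.2.2.2.2] at h1
  let K : Subgroup 𝒢 :=
    { carrier := {g | ∃ a ∈ F5, ∃ c ∈ J, g = a * c}
      one_mem' := ⟨1, F5.one_mem, 1, J.one_mem, by rw [mul_one]⟩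
      mul_mem' := by
        rintro _ _ ⟨a, ha, c, hc, rfl⟩ ⟨a', ha', c', hc', rfl⟩
        refine ⟨a * a', F5.mul_mem ha ha', c * c', J.mul_mem hc hc', ?_⟩
        have h := Cfsg.Agent.H858.Loc5.directProduct.2.2.1 a' ha' c hc
        calc a * c * (a' * c') = a * (c * a') * c' := by group
          _ = a * a' * (c * c') := by rw [← h]; group
      inv_mem' := by
        rintro _ ⟨a, ha, c, hc, rfl⟩
        refine ⟨a⁻¹, F5.inv_mem ha, c⁻¹, J.inv_mem hc, ?_⟩
        rw [mul_inv_rev]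
        exact (Cfsg.Agent.H858.Loc5.directProduct.2.2.1 _ (F5.inv_mem ha) _ (J.inv_mem hc)).symm }
  have h2 : F5 ⊔ J ≤ K := by
    refine sup_le (fun a ha => ⟨a, ha, 1, J.one_mem, by rw [mul_one]⟩)
      (fun c hc => ⟨1, F5.one_mem, c, hc, by rw [one_mul]⟩)
  obtain ⟨a, ha, c, hc, rfl⟩ := h2 h1
  classical
  obtain ⟨n, hn, rfl⟩ := Finset.mem_image.1 (mem_zpowers_iff_mem_range_orderOf.1 ha)
  rw [f_ord, Finset.mem_range] at hn
  exact ⟨n, hn, c, hc, rfl⟩

theorem fc_uniq {a b : ℕ} (ha : a < 5) (hb : b < 5) {c d : 𝒢} (hc : c ∈ J) (hd : d ∈ J)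
    (h : f ^ a * c = f ^ b * d) : a = b ∧ c = d := by
  have h1 : (f ^ b)⁻¹ * f ^ a = d * c⁻¹ := by
    rw [inv_mul_eq_iff_eq_mul, ← mul_assoc, ← h, mul_inv_cancel_right]
  have h2 : (f ^ b)⁻¹ * f ^ a ∈ F5 ⊓ J := by
    refine Subgroup.mem_inf.2 ⟨F5.mul_mem (F5.inv_mem (Subgroup.npow_mem_zpowers f b))
      (Subgroup.npow_mem_zpowers f a), ?_⟩
    rw [h1]; exact J.mul_mem hd (J.inv_mem hc)
  rw [Cfsg.Agent.H858.Loc5.F5_inf, Subgroup.mem_bot] at h2
  have h3 : f ^ a = f ^ b := by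
    rw [inv_mul_eq_one] at h2; exact h2.symm
  have h4 : a = b := by
    have := pow_inj_mod.1 h3
    rw [f_ord] at this
    omega
  subst h4
  exact ⟨rfl, mul_left_cancel h⟩

/-! ### Equations -/

theorem g_r2 : getG LY ir2 = r * r := by
  have h := eqY (p := ([ir2], [ir, ir])) (by decide +kernel)
  simp only [evG_cons, evG_nil, mul_one] at h
  rw [h, gr]

theorem fw_eq {a : ℕ} (ha : a < 5) : evG LY (fw a) = f ^ a := by
  interval_cases a
  · rw [pow_zero]; rfl
  · rw [pow_one, ← gf]; exact mul_one _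
  · have h := eqY (p := ([iF2], [iF, iF])) (by decide +kernel)
    show evG LY [iF2] = _
    rw [h]
    simp only [evG_cons, evG_nil, mul_one, gf, pow_succ, pow_zero, one_mul]
  · have h := eqY (p := ([iF3], [iF, iF, iF])) (by decide +kernel)
    show evG LY [iF3] = _
    rw [h]
    simp only [evG_cons, evG_nil, mul_one, gf, pow_succ, pow_zero, one_mul, mul_assoc]
  · have h := eqY (p := ([iF4], [iF, iF, iF, iF])) (by decide +kernel)
    show evG LY [iF4] = _
    rw [h]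
    simp only [evG_cons, evG_nil, mul_one, gf, pow_succ, pow_zero, one_mul, mul_assoc]

theorem wW_eq {a : ℕ} (ha : a < 5) (i : ℕ) : evG LY (wW a i) = f ^ a * (cJ i * (r * r)) := by
  rw [wW, evG_append, evG_append, fw_eq ha, evG_cons, evG_nil, mul_one, g_r2]; rfl

theorem uW_eq {a : ℕ} (ha : a < 5) (i : ℕ) : evG LY (uW a i) = f ^ a * (cJ i * r) := by
  rw [uW, evG_append, evG_append, fw_eq ha, evG_cons, evG_nil, mul_one, gr]; rfl

theorem cJ_one : cJ 1 = s := by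
  have h : jW 1 = [is] := by decide +kernel
  rw [cJ, h, evG_cons, evG_nil, mul_one, gs]

theorem cJ_two : cJ 2 = j := by
  have h : jW 2 = [ij] := by decide +kernel
  rw [cJ, h, evG_cons, evG_nil, mul_one, gj]

theorem r_mul_j : r * j = cJ 564 * r := by
  have h := eqY (p := ([ir, ij], jW 564 ++ [ir])) (by decide +kernel)
  rw [evG_append] at h
  simp only [evG_cons, evG_nil, mul_one] at h
  rw [gr, gj] at h
  exact h

theorem r2_mul_j : r * r * j = j * (r * r) := by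
  have h := eqY (p := ([ir2, ij], [ij, ir2])) (by decide +kernel)
  simp only [evG_cons, evG_nil, mul_one] at h
  rw [g_r2, gj] at h
  exact h

theorem r2_J {c : 𝒢} (hc : c ∈ J) : r * r * c = c * (r * r) := by
  unfold J at hc
  induction hc using Subgroup.closure_induction with
  | mem x hx =>
    rcases hx with rfl | rfl
    · rw [mul_assoc, r_mul_s, ← mul_assoc, r_mul_s, mul_assoc]
    · exact r2_mul_j
  | one => rw [mul_one, one_mul]
  | mul x y _ _ hx hy => rw [← mul_assoc, hx, mul_assoc, hy, mul_assoc]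
  | inv x _ hx =>
    have h : Commute (r * r) x := hx
    exact h.inv_right.eq

theorem th_zero : th 0 = 0 := by
  have h := th_ok
  unfold thOk at h
  rw [Bool.and_eq_true] at h
  exact Nat.eq_of_beq_eq_true h.1

theorem th_step {i : ℕ} (hi : i < 1344) : th i < 1344 ∧ (i ≠ 0 → eqc (TJ.x (th i))
    (mc (TJ.x (th (tget TJ.par 11 i))) (TJ.x (cond (Nat.beq (tget TJ.lets 2 i) 0) 1 564))) = true) := by
  have h := th_ok
  unfold thOk at h
  rw [Bool.and_eq_true, List.all_eq_true] at h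
  have h1 := h.2 i (List.mem_range.2 hi)
  rw [Bool.and_eq_true, Nat.blt_eq, Bool.or_eq_true, Nat.beq_eq] at h1
  exact ⟨h1.1, fun h0 => h1.2.resolve_left h0⟩

theorem cJ_step {i : ℕ} (hi : i < 1344) (h0 : i ≠ 0) :
    cJ i = cJ (tget TJ.par 11 i) * (cond (Nat.beq (tget TJ.lets 2 i) 0) s j) := by
  obtain ⟨h1, h2, h3⟩ := tree_step hi h0
  apply rho_injective
  rw [map_mul, rho_cJ hi, h3, E_mul hyp (x_ok (h1.trans hi)) (Tab.g_ok Cfsg.Agent.H860.JTab.tree _),
    rho_cJ (h1.trans hi)]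
  have h5 : tget TJ.lets 2 i = 0 ∨ tget TJ.lets 2 i = 1 := by omega
  rcases h5 with h5 | h5
  · rw [h5, ← rho_s]; rfl
  · rw [h5, ← rho_j]; rfl

/-- conjugation by `r` -/
theorem r_cJ (i : ℕ) (hi : i < 1344) : r * cJ i = cJ (th i) * r := by
  induction i using Nat.strong_induction_on with
  | _ i ih =>
    by_cases h0 : i = 0
    · rw [h0, th_zero, cJ_zero, mul_one, one_mul]
    · obtain ⟨h1, h2, -⟩ := tree_step hi h0
      have h3 := (th_step hi).2 h0
      have hp := h1.trans hi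
      have h4 := cJ_mul_eq (th_step hp).1 (show cond (Nat.beq (tget TJ.lets 2 i) 0) 1 564 < 1344 by
        cases Nat.beq (tget TJ.lets 2 i) 0 <;> decide) (th_step hi).1 h3
      rw [cJ_step hi h0, h4, ← mul_assoc, ih _ h1 hp, mul_assoc, mul_assoc]
      have h5 : r * (cond (Nat.beq (tget TJ.lets 2 i) 0) s j) =
          cJ (cond (Nat.beq (tget TJ.lets 2 i) 0) 1 564) * r := by
        cases Nat.beq (tget TJ.lets 2 i) 0
        · exact r_mul_j
        · show r * s = cJ 1 * r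
          rw [cJ_one]; exact r_mul_s
      rw [h5]

/-! ### Elements inverting `f`, and elements acting as squaring -/

theorem r_f : r * f * r⁻¹ = f ^ 2 := by
  rw [r_mul_f, mul_inv_cancel_right, pow_two]

theorem r_f_pow (a : ℕ) : r * f ^ a = f ^ (2 * a) * r := by
  have h := r_f
  have h1 : r * f ^ a * r⁻¹ = f ^ (2 * a) := by
    rw [← conj_pow, h, ← pow_mul]
  rw [← h1, inv_mul_cancel_right]

theorem f_inv : f⁻¹ = f ^ 4 := by
  rw [inv_eq_iff_mul_eq_one, ← pow_succ']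
  exact f_pow

theorem r2_f : r * r * f = f⁻¹ * (r * r) := by
  have h1 : r * f = f ^ 2 * r := by have := r_f_pow 1; rwa [pow_one] at this
  rw [mul_assoc, h1, ← mul_assoc, r_f_pow, f_inv, mul_assoc]

theorem r2_f_pow (a : ℕ) : r * r * f ^ a = (f ^ a)⁻¹ * (r * r) := by
  induction a with
  | zero => simp
  | succ a ih =>
    rw [pow_succ, ← mul_assoc, ih, mul_assoc, r2_f, ← mul_assoc]
    congr 1
    rw [← mul_inv_rev, ← pow_succ', pow_succ]

theorem r4 : r * r * (r * r) = 1 := by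
  have := r_pow
  rw [← this]; simp only [pow_succ, pow_zero, one_mul, mul_assoc]

theorem fpow_comm {c : 𝒢} (hc : c ∈ J) (a : ℕ) : c * f ^ a = f ^ a * c :=
  ((show Commute c f from J_f hc).pow_right a).eq

/-- the involutions inverting `f` -/
theorem exists_w {w : 𝒢} (hw : w * w = 1) (hf : w * f * w⁻¹ = f⁻¹) :
    ∃ a < 5, ∃ i < 1344, w = f ^ a * (cJ i * (r * r)) ∧ cJ i * cJ i = cJ 0 := by
  have hwf : w * f⁻¹ = f * w := by
    have e : w * f⁻¹ * w⁻¹ = (w * f * w⁻¹)⁻¹ := by group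
    rw [hf, inv_inv] at e
    exact mul_inv_eq_iff_eq_mul.1 e
  have h1 : (w * (r * r)) * f = f * (w * (r * r)) := by
    rw [mul_assoc, r2_f, ← mul_assoc, hwf, mul_assoc]
  obtain ⟨a, ha, c, hc, h5⟩ := exists_fc h1
  obtain ⟨i, hi, rfl⟩ := exists_cJ hc
  have h6 : w = f ^ a * (cJ i * (r * r)) := by
    rw [← mul_assoc, ← h5, mul_assoc, r4, mul_one]
  refine ⟨a, ha, i, hi, h6, ?_⟩
  have h7 : w * w = cJ i * cJ i := by
    rw [h6]
    calc f ^ a * (cJ i * (r * r)) * (f ^ a * (cJ i * (r * r)))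
        = f ^ a * (cJ i * (r * r * f ^ a) * (cJ i * (r * r))) := by simp only [mul_assoc]
      _ = f ^ a * (cJ i * (f ^ a)⁻¹ * (r * r * cJ i * (r * r))) := by rw [r2_f_pow]; simp only [mul_assoc]
      _ = f ^ a * (cJ i * (f ^ a)⁻¹ * (cJ i * (r * r * (r * r)))) := by rw [r2_J hc]; simp only [mul_assoc]
      _ = f ^ a * (cJ i * (f ^ a)⁻¹ * cJ i) := by rw [r4, mul_one]
      _ = f ^ a * ((f ^ a)⁻¹ * cJ i * cJ i) := by
          rw [(show Commute (cJ i) (f ^ a) from fpow_comm hc a).inv_right.eq]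
      _ = cJ i * cJ i := by simp only [← mul_assoc, mul_inv_cancel, one_mul]
  rw [cJ_zero, ← h7, hw]

/-- elements acting on `f` as squaring, with a given square -/
theorem exists_u {u : 𝒢} {a k : ℕ} (ha : a < 5) (hk : k < 1344) (hu : u * u = f ^ a * (cJ k * (r * r)))
    (hf : u * f * u⁻¹ = f ^ 2) :
    ∃ b < 5, ∃ i < 1344, u = f ^ b * (cJ i * r) ∧ (3 * b) % 5 = a ∧ cJ i * cJ (th i) = cJ k := by
  have huf : u * f = f ^ 2 * u := mul_inv_eq_iff_eq_mul.1 hf
  have hr : r⁻¹ * f ^ 2 = f * r⁻¹ := by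
    have h := r_f
    rw [← h]; group
  have h1 : (r⁻¹ * u) * f = f * (r⁻¹ * u) := by
    rw [mul_assoc, huf, ← mul_assoc, hr, mul_assoc]
  have h2 : (u * r⁻¹) * f = f * (u * r⁻¹) := by
    have e1 : r⁻¹ * f = f ^ 3 * r⁻¹ := by
      have h := r_f_pow 3
      have h3 : f ^ (2 * 3) = f := by
        rw [show 2 * 3 = 5 + 1 from rfl, pow_succ, f_pow, one_mul]
      rw [h3] at h
      rw [inv_mul_eq_iff_eq_mul, ← mul_assoc, h, mul_inv_cancel_right]
    have e2 : u * f ^ 3 = f * u := by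
      have h4 : u * f ^ 3 * u⁻¹ = f := by
        rw [← conj_pow, hf, ← pow_mul, show 2 * 3 = 5 + 1 from rfl, pow_succ, f_pow, one_mul]
      exact mul_inv_eq_iff_eq_mul.1 h4
    rw [mul_assoc, e1, ← mul_assoc, e2, mul_assoc]
  obtain ⟨b, hb, c, hc, h5⟩ := exists_fc h2
  obtain ⟨i, hi, rfl⟩ := exists_cJ hc
  have h6 : u = f ^ b * (cJ i * r) := by
    rw [← mul_assoc, ← h5, inv_mul_cancel_right]
  have hth := th_step hi
  have h7 : u * u = f ^ (3 * b) * (cJ i * cJ (th i) * (r * r)) := by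
    rw [h6]
    calc f ^ b * (cJ i * r) * (f ^ b * (cJ i * r))
        = f ^ b * (cJ i * (r * f ^ b) * (cJ i * r)) := by simp only [mul_assoc]
      _ = f ^ b * (cJ i * f ^ (2 * b) * (r * cJ i * r)) := by rw [r_f_pow]; simp only [mul_assoc]
      _ = f ^ b * (f ^ (2 * b) * cJ i * (cJ (th i) * r * r)) := by rw [fpow_comm hc, r_cJ i hi]
      _ = f ^ b * f ^ (2 * b) * (cJ i * cJ (th i) * (r * r)) := by simp only [mul_assoc]
      _ = f ^ (3 * b) * (cJ i * cJ (th i) * (r * r)) := by rw [← pow_add]; congr 2; ring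
  have h8 : f ^ (3 * b) * (cJ i * cJ (th i)) = f ^ a * cJ k := by
    rw [h7] at hu
    have h9 : f ^ (3 * b) * (cJ i * cJ (th i)) * (r * r) = f ^ a * cJ k * (r * r) := by
      simpa only [mul_assoc] using hu
    exact mul_right_cancel h9
  have h10 : f ^ ((3 * b) % 5) * (cJ i * cJ (th i)) = f ^ a * cJ k := by
    rw [← h8]
    congr 1
    conv_rhs => rw [← Nat.mod_add_div (3 * b) 5, pow_add, pow_mul, f_pow, one_pow, mul_one]
  obtain ⟨h11, h12⟩ := fc_uniq (Nat.mod_lt _ (by norm_num)) ha (J.mul_mem hc (cJ_mem hth.1)) (cJ_mem hk) h10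
  exact ⟨b, hb, i, hi, h6, h11, h12⟩

end Cfsg.Agent.H837.JM.Nf
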