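import Cfsg.Agent.H837.JM.Cls
import Cfsg.Agent.H837.JM.Pair
import Cfsg.Agent.H859.ClassEleven

/-!
# Points of `J4` fixed by groups `11:5`; the two classes of groups `11:5` (helper837)
-/

set_option autoImplicit false

open Cfsg

namespace Cfsg.Agent.H837.JM.Pnt

open Cfsg.Agent.Lib Cfsg.Agent.Lib.F2MatGroup
open Cfsg.Agent.Lib.F2Mat (toVec)
open Cfsg.Agent.J4.Rep112 Cfsg.Agent.J4.LowerData Cfsg.Agent.J4.Lower Cfsg.Agent.J4.Pres
open Cfsg.Agent.J4.M24Hom (XM YM closure_XYM)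
open Cfsg.Agent.J4.Upper (rw20 evalW HH)
open Cfsg.Agent.J4.Nodes (letG letG0 letG1 letG2)
open Cfsg.Agent.H858.Data (slpX LX V V_mem V_sq V_zero V_inj rho_V evG_bb bb)
open Cfsg.Agent.H858.Elem (s j f r f_pow)
open Cfsg.Agent.H858.Loc5 (J F5)
open Cfsg.Agent.H858.FixJ4 (B)
open Cfsg.Agent.H858.VK (rho_injective sE_eq mem_B)
open Cfsg.Agent.H837.JM.Dat Cfsg.Agent.H837.JM.Chk Cfsg.Agent.H837.JM.Base Cfsg.Agent.H837.JM.Nf
open Cfsg.Agent.H837.JM.Cls

/-- the group `Spor.J4` -/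
local notation "𝒢" => Cfsg.Spor.J4

/-- the stabilizer of the vector of the standard point -/
noncomputable abbrev F0 : Subgroup 𝒢 := Fx (toVec 112 p0)

theorem fix0 {i : ℕ} (h : ([i], p0, p0) ∈ tsE) : getG LY i ∈ F0 := by
  have h1 := tsE_get h
  simp only [evG_cons, evG_nil, mul_one] at h1
  exact h1

theorem x_mem0 : x ∈ F0 := by
  rw [← gx]; exact fix0 (by unfold tsE; simp)
theorem y_mem0 : y ∈ F0 := by
  rw [← gy]; exact fix0 (by unfold tsE; simp)
theorem V_mem0 {k : ℕ} (hk : k < 11) : getG LY (iV + k) ∈ F0 := by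
  apply fix0
  unfold tsE
  rw [List.mem_append]
  left
  rw [List.mem_map]
  refine ⟨[iV + k], ?_, rfl⟩
  rw [List.mem_cons, List.mem_cons, List.mem_cons, List.mem_map]
  exact Or.inr (Or.inr (Or.inr ⟨k, List.mem_range.2 hk, rfl⟩))

theorem phi_mem0 (m : M24) : phi m ∈ F0 := by
  have h : (⊤ : Subgroup M24) ≤ F0.comap phi := by
    rw [← closure_XYM, Subgroup.closure_le]
    rintro _ (rfl | rfl)
    · show phi XM ∈ F0
      rw [phi_X]; exact x_mem0
    · show phi YM ∈ F0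
      rw [phi_Y]; exact y_mem0
  exact h (Subgroup.mem_top m)

theorem s_mem0 : Cfsg.Agent.J4.Invol.s ∈ F0 := by
  have h : Cfsg.Agent.J4.Invol.s = V 1024 := rho_injective (by rw [Cfsg.Agent.J4.Invol.rho_s, rho_V])
  have h2 : V 1024 = getG LY (iV + 10) := by
    rw [← evG_bb, show iV + 10 = 27 + 23 from rfl, getLY]
    have h3 : bb 1024 = [23] := by decide +kernel
    rw [h3, evG_cons, evG_nil, mul_one]
  rw [h, h2]
  exact V_mem0 (by norm_num)

theorem B_le0 : B ≤ F0 := by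
  show HH phi t ≤ F0
  unfold HH
  rw [Subgroup.closure_le]
  rintro z (rfl | ⟨g, rfl⟩)
  · rw [sE_eq]; exact s_mem0
  · exact phi_mem0 g

theorem evalW_eq (w : List ℕ) (hw : ∀ a ∈ w, a < 4) : evalW phi t w = evG LY (w.map fun a => iX + a) := by
  induction w with
  | nil => rfl
  | cons a w ih =>
    rw [List.map_cons, evG_cons, ← ih fun b hb => hw b (List.mem_cons_of_mem _ hb)]
    show (if a = 3 then t else phi (letG a)) * evalW phi t w = _
    congr 1
    have ha : a < 4 := hw a List.mem_cons_self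
    interval_cases a
    · show phi (letG 0) = getG LY iX
      rw [letG0, phi_X, gx]
    · show phi (letG 1) = getG LY iY
      rw [letG1, phi_Y, gy]
    · show phi (letG 2) = getG LY iYi
      rw [letG2, map_inv, phi_Y, gyi]
    · exact gt.symm

theorem rw_lt : ∀ i < 20, ∀ a ∈ rw20 i, a < 4 := by decide +kernel

theorem p0_lt : p0 < 2 ^ 112 := by norm_num [p0]

/-- the stabilizer of the vector is `2^11:M24` -/
theorem F0_eq : F0 = B := by
  refine le_antisymm (fun g hg => ?_) B_le0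
  obtain ⟨i, m, hi⟩ := Cfsg.Agent.H858.FixJ4.cover (QuotientGroup.mk g : 𝒢 ⧸ B)
  have h1 : (QuotientGroup.mk g : 𝒢 ⧸ B) = QuotientGroup.mk (phi m * (Cfsg.Agent.H858.FixJ4.r i)⁻¹) := hi
  rw [QuotientGroup.eq] at h1
  have h2 : g⁻¹ * (phi m * (Cfsg.Agent.H858.FixJ4.r i)⁻¹) ∈ F0 := B_le0 h1
  have h3 : Cfsg.Agent.H858.FixJ4.r i ∈ F0 := by
    have h4 := F0.mul_mem (F0.inv_mem (phi_mem0 m)) (F0.mul_mem hg h2)
    have h5 : (phi m)⁻¹ * (g * (g⁻¹ * (phi m * (Cfsg.Agent.H858.FixJ4.r i)⁻¹))) =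
        (Cfsg.Agent.H858.FixJ4.r i)⁻¹ := by group
    rw [h5] at h4
    exact (Subgroup.inv_mem_iff F0).1 h4
  have h6 : (i : ℕ) = 0 := by
    by_contra h0
    have h7 := facts0.2.2 ((rw20 i).map fun a => iX + a, p0, p0) (by
      unfold tsN
      rw [List.mem_append]
      right
      rw [List.mem_map]
      refine ⟨i - 1, List.mem_range.2 (by have := i.2; omega), ?_⟩
      rw [show (i : ℕ) - 1 + 1 = i by omega]) p0_lt p0_lt
    apply h7
    have h8 : Cfsg.Agent.H858.FixJ4.r i = evG LY ((rw20 i).map fun a => iX + a) :=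
      evalW_eq _ (rw_lt i i.2)
    rw [h8] at h3
    exact h3
  have h7 : Cfsg.Agent.H858.FixJ4.r i = 1 := by
    show evalW phi t (rw20 i) = 1
    rw [h6]; rfl
  rw [h7, inv_one, mul_one] at h1
  have h8 : phi m ∈ B := Cfsg.Agent.J4.Upper.range_le ⟨m, rfl⟩
  have h9 := B.mul_mem h8 (B.inv_mem h1)
  have h10 : phi m * (g⁻¹ * phi m)⁻¹ = g := by group
  rwa [h10] at h9

/-! ### The point of `XB` and `f` -/

/-- the element moving the point to the standard point -/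
noncomputable def G1 : 𝒢 := getG LY iG

theorem gi_eq : getG LY iGi = G1⁻¹ := by
  have h := eqY (p := ([iGi, iG], [])) (by decide +kernel)
  simp only [evG_cons, evG_nil, mul_one] at h
  exact eq_inv_of_mul_eq_one_left h

theorem act_G1 : act (toVec 112 p0) G1 = toVec 112 pK := by
  have h := tsE_get (t := ([iG], p0, pK)) (by unfold tsE; simp)
  simp only [evG_cons, evG_nil, mul_one] at h
  exact h

theorem mem_FK {g : 𝒢} : g ∈ FK ↔ G1 * g * G1⁻¹ ∈ B := by
  rw [← F0_eq, mem_Fx, mem_Fx, ← act_G1]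
  constructor
  · intro h
    rw [← act_mul] at h
    rw [act_mul, h, ← act_mul, mul_inv_cancel, act_one]
  · intro h
    have h2 := congrArg (fun v => act v G1) h
    simp only [← act_mul] at h2
    rw [inv_mul_cancel_right] at h2
    rw [← act_mul]; exact h2

/-- the element of order 11 of `2^11:M24` -/
noncomputable def X1 : 𝒢 := getG LY iXX
/-- the element of order 5 of `2^11:M24` -/
noncomputable def F1 : 𝒢 := getG LY iPF
/-- the element inverting `X1` -/
noncomputable def S1 : 𝒢 := getG LY iS1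

theorem X1_eq : X1 = G1 * XB * G1⁻¹ := by
  have h := eqY (p := ([iGi, iXX, iG], [iB])) (by decide +kernel)
  simp only [evG_cons, evG_nil, mul_one] at h
  rw [gi_eq] at h
  show getG LY iXX = G1 * getG LY iB * G1⁻¹
  rw [← h, G1]; group

theorem F1_eq : F1 = G1 * f * G1⁻¹ := by
  have h := eqY (p := ([iG, iF], [iPF, iG])) (by decide +kernel)
  simp only [evG_cons, evG_nil, mul_one] at h
  rw [gf] at h
  rw [eq_mul_inv_iff_mul_eq]; exact h.symm

theorem X1_mem : X1 ∈ B := by rw [X1_eq]; exact mem_FK.1 XB_fix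
theorem F1_mem : F1 ∈ B := by rw [F1_eq]; exact mem_FK.1 f_fix
theorem S1_mem : S1 ∈ B := by rw [← F0_eq]; exact fix0 (by unfold tsE; simp)

theorem S1_X1 : S1 * X1 * S1⁻¹ = X1⁻¹ := by
  have h := eqY (p := ([iXX, iS1, iXX], [iS1])) (by decide +kernel)
  simp only [evG_cons, evG_nil, mul_one] at h
  rw [mul_inv_eq_iff_eq_mul, eq_inv_mul_iff_mul_eq]
  exact h

theorem S1_F1 : S1 * F1 = F1 * S1 := by
  have h := eqY (p := ([iS1, iPF], [iPF, iS1])) (by decide +kernel)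
  simp only [evG_cons, evG_nil, mul_one] at h
  exact h

theorem V_XX : X1 * V 270 = V 270 * X1 ∧ F1 * V 270 = V 270 * F1 := by
  have h0 : evG LY [iV + 1, iV + 2, iV + 3, iV + 8] = V 270 := by
    rw [← evG_bb]
    have h3 : bb 270 = [14, 15, 16, 21] := by decide +kernel
    rw [h3]
    simp only [evG_cons, evG_nil, mul_one]
    rw [show iV + 1 = 27 + 14 from rfl, show iV + 2 = 27 + 15 from rfl, show iV + 3 = 27 + 16 from rfl,
      show iV + 8 = 27 + 21 from rfl, getLY, getLY, getLY, getLY]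
  have h1 := eqY (p := (iXX :: [iV + 1, iV + 2, iV + 3, iV + 8], [iV + 1, iV + 2, iV + 3, iV + 8] ++ [iXX])) (by decide +kernel)
  have h2 := eqY (p := (iPF :: [iV + 1, iV + 2, iV + 3, iV + 8], [iV + 1, iV + 2, iV + 3, iV + 8] ++ [iPF])) (by decide +kernel)
  rw [evG_cons, evG_append, h0, evG_cons, evG_nil, mul_one] at h1 h2
  exact ⟨h1, h2⟩

/-! ### Orders -/

theorem XA_ne : XA ≠ 1 := by
  intro h
  apply facts0.2.2 ([iA], 1, 1) (by unfold tsN; simp) (by norm_num) (by norm_num)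
  simp only [evG_cons, evG_nil, mul_one]
  show act _ XA = _
  rw [h, act_one]

theorem XB_ne : XB ≠ 1 := by
  intro h
  apply facts0.2.2 ([iB], 1, 1) (by unfold tsN; simp) (by norm_num) (by norm_num)
  simp only [evG_cons, evG_nil, mul_one]
  show act _ XB = _
  rw [h, act_one]

theorem XA_ord : orderOf XA = 11 := by
  have : Fact (Nat.Prime 11) := ⟨by norm_num⟩
  exact orderOf_eq_prime XA_pow XA_ne

theorem XB_ord : orderOf XB = 11 := by
  have : Fact (Nat.Prime 11) := ⟨by norm_num⟩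
  exact orderOf_eq_prime XB_pow XB_ne

theorem orderOf_conj {G : Type*} [Group G] (g a : G) : orderOf (g * a * g⁻¹) = orderOf a :=
  orderOf_injective (MulAut.conj g).toMonoidHom (MulAut.conj g).injective a

theorem X1_ord : orderOf X1 = 11 := by rw [X1_eq, orderOf_conj, XB_ord]
theorem F1_ord : orderOf F1 = 5 := by rw [F1_eq, orderOf_conj, f_ord]

theorem X1_pow : X1 ^ 11 = 1 := by rw [← X1_ord, pow_orderOf_eq_one]

theorem card_B : Nat.card B = 2 ^ 11 * 244823040 := Cfsg.Agent.H858.FixJ4.card_B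

/-- the element of order 11 of `M24` -/
noncomputable abbrev P11 : 𝒢 := phi Cfsg.Agent.H859.M24Eleven.f

theorem P11_mem : P11 ∈ B := Cfsg.Agent.J4.Upper.range_le ⟨_, rfl⟩
theorem P11_ord : orderOf P11 = 11 := Cfsg.Agent.H859.CentEleven.orderOf_phi_f

/-- an element of order 11 of `2^11:M24` generates a conjugate of the standard group -/
theorem conj_P11 {a b : 𝒢} (ha : a ∈ B) (hb : b ∈ B) (hao : orderOf a = 11) (hbo : orderOf b = 11) :
    ∃ h ∈ B, h * a * h⁻¹ ∈ Subgroup.zpowers b :=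
  Pair.exists_conj (by norm_num) (by rw [card_B]; norm_num) ha hb hao hbo

theorem zpowers_eq {G : Type*} [Group G] {a b : G} {p : ℕ} [Fact p.Prime] (ha : orderOf a = p) (hb : orderOf b = p)
    (h : a ∈ Subgroup.zpowers b) : Subgroup.zpowers a = Subgroup.zpowers b := by
  have hfin : Finite (Subgroup.zpowers b) := by
    apply Nat.finite_of_card_ne_zero
    rw [Nat.card_zpowers, hb]
    exact (Fact.out : p.Prime).ne_zero
  apply Subgroup.eq_of_le_of_card_ge
  · rw [Subgroup.zpowers_le]; exact h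
  · rw [Nat.card_zpowers, Nat.card_zpowers, ha, hb]

theorem cent_zpowers {G : Type*} [Group G] (a : G) :
    Subgroup.centralizer ({a} : Set G) = Subgroup.centralizer (Subgroup.zpowers a : Set G) := by
  ext g
  rw [Subgroup.mem_centralizer_singleton_iff, Subgroup.mem_centralizer_iff]
  constructor
  · rintro h _ ⟨n, rfl⟩
    exact ((show Commute g a from h).zpow_right n).symm.eq
  · intro h
    exact (h a (Subgroup.mem_zpowers a)).symm

theorem card_cent_P11 : Nat.card (Subgroup.centralizer ({P11} : Set 𝒢)) = 242 := by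
  obtain ⟨g, hg⟩ := Cfsg.Agent.H859.SylEleven.exists_x.choose_spec.2
  rw [← Cfsg.Agent.H859.SylEleven.card_centralizer_x_eq]
  apply Cfsg.Agent.H859.ClassEleven.card_centralizer_conj
  exact isConj_iff.2 ⟨g, hg.symm⟩

theorem conj_x : IsConj P11 Cfsg.Agent.H859.SylEleven.x := by
  obtain ⟨g, hg⟩ := Cfsg.Agent.H859.SylEleven.exists_x.choose_spec.2
  exact isConj_iff.2 ⟨g, hg.symm⟩

theorem card_cent_of_mem {a : 𝒢} (ha : a ∈ B) (hao : orderOf a = 11) :
    Nat.card (Subgroup.centralizer ({a} : Set 𝒢)) = 242 := by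
  have : Fact (Nat.Prime 11) := ⟨by norm_num⟩
  obtain ⟨h, -, h1⟩ := conj_P11 ha P11_mem hao P11_ord
  have h2 : Nat.card (Subgroup.centralizer ({a} : Set 𝒢)) =
      Nat.card (Subgroup.centralizer ({h * a * h⁻¹} : Set 𝒢)) :=
    Cfsg.Agent.H859.ClassEleven.card_centralizer_conj (isConj_iff.2 ⟨h, rfl⟩)
  rw [h2, cent_zpowers, zpowers_eq ((orderOf_conj h a).trans hao) P11_ord h1, ← cent_zpowers, card_cent_P11]

theorem card_cent_F1 : Nat.card (Subgroup.centralizer ({F1} : Set 𝒢)) = 6720 := by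
  have h2 : Nat.card (Subgroup.centralizer ({f} : Set 𝒢)) = Nat.card (Subgroup.centralizer ({F1} : Set 𝒢)) :=
    Cfsg.Agent.H859.ClassEleven.card_centralizer_conj (isConj_iff.2 ⟨G1, F1_eq.symm⟩)
  rw [← h2, cent_zpowers]
  exact Cfsg.Agent.H858.Loc5.card_C

theorem V270_mem : V 270 ∈ B := mem_B.2 ⟨V 270, V_mem 270, 1, by rw [map_one, mul_one]⟩

theorem V270_ne : V 270 ≠ 1 := by
  rw [← V_zero]
  intro h
  exact absurd (V_inj (by norm_num) (by norm_num) h) (by norm_num)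

/-- the centralizer of the group `11:5` is contained in `2^11:M24` -/
theorem mem_of_cent {z : 𝒢} (h1 : z * X1 = X1 * z) (h2 : z * F1 = F1 * z) : z ∈ B := by
  set Z : Subgroup 𝒢 := Subgroup.centralizer ({X1} : Set 𝒢) ⊓ Subgroup.centralizer ({F1} : Set 𝒢) with hZ
  have c1 : Nat.card Z ∣ 242 := by
    rw [← card_cent_of_mem X1_mem X1_ord]; exact Subgroup.card_dvd_of_le inf_le_left
  have c2 : Nat.card Z ∣ 6720 := by
    rw [← card_cent_F1]; exact Subgroup.card_dvd_of_le inf_le_right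
  have c3 : Nat.card Z ∣ 2 := (Nat.dvd_gcd c1 c2).trans (by norm_num)
  have hz : z ∈ Z := Subgroup.mem_inf.2 ⟨Subgroup.mem_centralizer_singleton_iff.2 h1,
    Subgroup.mem_centralizer_singleton_iff.2 h2⟩
  have hv : V 270 ∈ Z := Subgroup.mem_inf.2 ⟨Subgroup.mem_centralizer_singleton_iff.2 V_XX.1.symm,
    Subgroup.mem_centralizer_singleton_iff.2 V_XX.2.symm⟩
  have hvo : orderOf (V 270) = 2 := by
    have : Fact (Nat.Prime 2) := ⟨by norm_num⟩
    exact orderOf_eq_prime (by rw [pow_two]; exact V_sq 270) V270_ne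
  have hle : Subgroup.zpowers (V 270) ≤ Z := by rw [Subgroup.zpowers_le]; exact hv
  have heq : Subgroup.zpowers (V 270) = Z := by
    apply Subgroup.eq_of_le_of_card_ge hle
    rw [Nat.card_zpowers, hvo]
    exact Nat.le_of_dvd (by norm_num) c3
  rw [← heq] at hz
  exact (Subgroup.zpowers_le.2 V270_mem) hz

theorem r1 : F1 * X1 * F1⁻¹ = X1 ^ 3 := by
  rw [F1_eq, X1_eq, conj_pow, ← f_XB]; group

/-- **the group `11:5` fixes only one point** -/
theorem mem_B_of {m : 𝒢} (h1 : m * X1 * m⁻¹ ∈ B) (h2 : m * F1 * m⁻¹ ∈ B) : m ∈ B := by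
  obtain ⟨b, hb, h3⟩ := conj_P11 h1 X1_mem ((orderOf_conj m X1).trans X1_ord) X1_ord
  have hrel : (b * m * F1 * (b * m)⁻¹) * (b * m * X1 * (b * m)⁻¹) * (b * m * F1 * (b * m)⁻¹)⁻¹ =
      (b * m * X1 * (b * m)⁻¹) ^ 3 := by
    rw [conj_pow, ← r1]; group
  have h3' : b * m * X1 * (b * m)⁻¹ ∈ Subgroup.zpowers X1 := by
    have e : b * m * X1 * (b * m)⁻¹ = b * (m * X1 * m⁻¹) * b⁻¹ := by group
    rw [e]; exact h3
  have hne : b * m * X1 * (b * m)⁻¹ ≠ 1 := by
    intro h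
    have := orderOf_conj (b * m) X1
    rw [h, orderOf_one, X1_ord] at this
    omega
  have hF : b * m * F1 * (b * m)⁻¹ ∈ B := by
    have e : b * m * F1 * (b * m)⁻¹ = b * (m * F1 * m⁻¹) * b⁻¹ := by group
    rw [e]; exact B.mul_mem (B.mul_mem hb h2) (B.inv_mem hb)
  obtain ⟨h, hh, h4, h5, -⟩ := Pair.exists_fuse X1_ord F1_ord ((orderOf_conj (b * m) F1).trans F1_ord) r1 h3' hne hrel
    F1_mem hF (by rw [card_B]; norm_num)
  -- the element `n = h b m` commutes with `F1` and normalizes `X1`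
  obtain ⟨n, hn⟩ : ∃ n, n = h * b * m := ⟨_, rfl⟩
  have h6 : n * F1 * n⁻¹ = F1 := by
    have e : h * b * m * F1 * (h * b * m)⁻¹ = h * (b * m * F1 * (b * m)⁻¹) * h⁻¹ := by group
    rw [hn, e, h4]
  have h7 : n * X1 * n⁻¹ ∈ Subgroup.zpowers X1 := by
    have e : n * X1 * n⁻¹ = h * (b * m * X1 * (b * m)⁻¹) * h⁻¹ := by rw [hn]; group
    rw [e]; exact h5
  have h8 : n * X1 * n⁻¹ ≠ 1 := by
    intro h
    have := orderOf_conj n X1
    rw [h, orderOf_one, X1_ord] at this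
    omega
  obtain ⟨i, hi0, hi, h9⟩ := Pair.exists_pow (by norm_num) X1_ord h7 h8
  obtain ⟨k, -, hk⟩ := Pair.arith2 i hi hi0
  have h10 : (F1 ^ k * n) * X1 * (F1 ^ k * n)⁻¹ = X1 ^ (3 ^ k * i) := by
    have e : (F1 ^ k * n) * X1 * (F1 ^ k * n)⁻¹ = F1 ^ k * (n * X1 * n⁻¹) * (F1 ^ k)⁻¹ := by group
    rw [e, h9, ← conj_pow, Pair.pow_conj_pow r1, ← pow_mul]
  have h11 : (F1 ^ k * n) * F1 = F1 * (F1 ^ k * n) := by
    have e : n * F1 = F1 * n := mul_inv_eq_iff_eq_mul.1 h6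
    rw [mul_assoc, e, ← mul_assoc, ← mul_assoc, ← pow_succ, ← pow_succ']
  have hX : X1 ^ (3 ^ k * i) = X1 ^ ((3 ^ k * i) % 11) := by rw [← X1_ord, pow_mod_orderOf]
  have key : F1 ^ k * n ∈ B := by
    rcases hk with hk | hk
    · apply mem_of_cent _ h11
      rw [hX, hk, pow_one] at h10
      exact mul_inv_eq_iff_eq_mul.1 h10
    · have h12 : S1 * (F1 ^ k * n) ∈ B := by
        apply mem_of_cent
        · have e : (S1 * (F1 ^ k * n)) * X1 * (S1 * (F1 ^ k * n))⁻¹ =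
              S1 * ((F1 ^ k * n) * X1 * (F1 ^ k * n)⁻¹) * S1⁻¹ := by group
          rw [h10, hX, hk, ← conj_pow, S1_X1] at e
          have e2 : X1⁻¹ ^ 10 = X1 := by
            rw [inv_pow, inv_eq_iff_mul_eq_one, ← pow_succ]
            exact X1_pow
          rw [e2] at e
          exact mul_inv_eq_iff_eq_mul.1 e
        · rw [mul_assoc, h11, ← mul_assoc, S1_F1, mul_assoc]
      have h13 := B.mul_mem (B.inv_mem S1_mem) h12
      rwa [inv_mul_cancel_left] at h13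
  have h14 : n ∈ B := by
    have := B.mul_mem (B.inv_mem (B.pow_mem F1_mem k)) key
    rwa [inv_mul_cancel_left] at this
  have h15 := B.mul_mem (B.inv_mem (B.mul_mem hh hb)) h14
  rw [hn, inv_mul_cancel_left] at h15
  exact h15

/-- the same for the stabilizer `FK` -/
theorem mem_FK_of {m : 𝒢} (h1 : m * XB * m⁻¹ ∈ FK) (h2 : m * f * m⁻¹ ∈ FK) : m ∈ FK := by
  rw [mem_FK] at h1 h2 ⊢
  apply mem_B_of
  · have e : G1 * m * G1⁻¹ * X1 * (G1 * m * G1⁻¹)⁻¹ = G1 * (m * XB * m⁻¹) * G1⁻¹ := by rw [X1_eq]; group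
    rw [e]; exact h1
  · have e : G1 * m * G1⁻¹ * F1 * (G1 * m * G1⁻¹)⁻¹ = G1 * (m * f * m⁻¹) * G1⁻¹ := by rw [F1_eq]; group
    rw [e]; exact h2

/-! ### The two classes of groups `11:5` -/

theorem tau_XA : cJ 16 * XA = XA * cJ 16 := by
  have h := eqY (p := (jW 16 ++ [iA], iA :: jW 16)) (by decide +kernel)
  rw [evG_append, evG_cons, evG_cons, evG_nil, mul_one] at h
  exact h

theorem cJ16_ne : cJ 16 ≠ 1 := by
  have h : Cfsg.Agent.H860.PairGroup.eqc
      (Cfsg.Agent.H860.PairGroup.mc (Cfsg.Agent.H860.JData.TJ.x 16) (Cfsg.Agent.H860.JData.TJ.x 0))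
      (Cfsg.Agent.H860.PairGroup.mc (Cfsg.Agent.H860.JData.TJ.x 0)
        (0, Cfsg.Agent.SporadicStructure.M24El.idP)) = false := by decide +kernel
  have h1 := cJ_mul_ne (show 16 < 1344 by norm_num) (show 0 < 1344 by norm_num) (show 0 < 1344 by norm_num) h
  rwa [cJ_zero, mul_one] at h1

theorem cJ16_cube : cJ 16 ^ 3 = 1 := by
  have h1 : cJ 257 = cJ 16 * cJ 16 := cJ_mul_eq (by norm_num) (by norm_num) (by norm_num) (by decide +kernel)
  have h2 : cJ 0 = cJ 257 * cJ 16 := cJ_mul_eq (by norm_num) (by norm_num) (by norm_num) (by decide +kernel)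
  rw [cJ_zero, h1] at h2
  rw [pow_succ, pow_two, ← h2]

theorem XA_conj : IsConj XA Cfsg.Agent.H859.NU.c := by
  rcases Cfsg.Agent.H859.ClassEleven.isConj_or XA_ord with h | h
  · exfalso
    have h1 := Cfsg.Agent.H859.ClassEleven.card_centralizer_conj h
    rw [Cfsg.Agent.H859.SylEleven.card_centralizer_x_eq] at h1
    have : Fact (Nat.Prime 3) := ⟨by norm_num⟩
    have h2 : orderOf (cJ 16) = 3 := orderOf_eq_prime cJ16_cube cJ16_ne
    have h3 : cJ 16 ∈ Subgroup.centralizer ({XA} : Set 𝒢) := Subgroup.mem_centralizer_singleton_iff.2 tau_XA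
    have h4 : orderOf (cJ 16) ∣ Nat.card (Subgroup.centralizer ({XA} : Set 𝒢)) :=
      Cfsg.Agent.H858.NormC.orderOf_dvd_of_mem h3
    rw [h1, h2] at h4
    exact absurd h4 (by norm_num)
  · exact h

/-- an element of order 11 is conjugate to an element of `⟨XA⟩` or `⟨XB⟩` -/
theorem exists_sub {a : 𝒢} (ha : orderOf a = 11) : ∃ g : 𝒢, ∃ X, (X = XA ∨ X = XB) ∧
    g * a * g⁻¹ ∈ Subgroup.zpowers X := by
  rcases Cfsg.Agent.H859.ClassEleven.isConj_or ha with h | h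
  · obtain ⟨g, hg⟩ := isConj_iff.1 (h.trans conj_x.symm)
    obtain ⟨b, -, hb⟩ := conj_P11 P11_mem X1_mem P11_ord X1_ord
    refine ⟨G1⁻¹ * b * g, XB, Or.inr rfl, ?_⟩
    obtain ⟨n, hn⟩ := hb
    refine ⟨n, ?_⟩
    have hn' : X1 ^ n = b * P11 * b⁻¹ := hn
    show XB ^ n = _
    have e : XB ^ n = G1⁻¹ * X1 ^ n * G1 := by
      have e1 : XB = G1⁻¹ * X1 * G1⁻¹⁻¹ := by rw [X1_eq]; group
      rw [e1, conj_zpow]; group
    rw [e, hn', ← hg]; group
  · obtain ⟨g, hg⟩ := isConj_iff.1 (h.trans XA_conj.symm)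
    exact ⟨g, XA, Or.inl rfl, by rw [hg]; exact Subgroup.mem_zpowers XA⟩

theorem card_sq5 : ¬ 5 ^ 2 ∣ Nat.card (⊤ : Subgroup 𝒢) := by
  rw [Subgroup.card_top, Cfsg.Agent.H858.FixJ4.card_J4]; norm_num

theorem rel_X {X : 𝒢} (h : X = XA ∨ X = XB) : f * X * f⁻¹ = X ^ 3 ∧ orderOf X = 11 := by
  rcases h with rfl | rfl
  · exact ⟨f_XA, XA_ord⟩
  · exact ⟨f_XB, XB_ord⟩

/-- **normal form of the groups `11:5`** -/
theorem exists_nf {a e : 𝒢} (ha : a ^ 11 = 1) (ha1 : a ≠ 1) (he : e ^ 5 = 1) (he1 : e ≠ 1)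
    (hr : e * a * e⁻¹ = a ^ 3) : ∃ g X : 𝒢, (X = XA ∨ X = XB) ∧ g * e * g⁻¹ = f ∧
      (g * a * g⁻¹ = X ∨ g * a * g⁻¹ = X⁻¹) := by
  have hf5 : Fact (Nat.Prime 5) := ⟨by norm_num⟩
  have hf11 : Fact (Nat.Prime 11) := ⟨by norm_num⟩
  have hao : orderOf a = 11 := orderOf_eq_prime ha ha1
  have heo : orderOf e = 5 := orderOf_eq_prime he he1
  obtain ⟨g, X, hX, h1⟩ := exists_sub hao
  obtain ⟨hfX, hXo⟩ := rel_X hX
  have hne : g * a * g⁻¹ ≠ 1 := by
    intro h
    have := orderOf_conj g a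
    rw [h, orderOf_one, hao] at this
    omega
  have hrel : (g * e * g⁻¹) * (g * a * g⁻¹) * (g * e * g⁻¹)⁻¹ = (g * a * g⁻¹) ^ 3 := by
    rw [conj_pow, ← hr]; group
  obtain ⟨h, -, h2, h3, -⟩ := Pair.exists_fuse hXo f_ord ((orderOf_conj g e).trans heo) hfX h1 hne hrel
    (Subgroup.mem_top _) (Subgroup.mem_top _) card_sq5
  have h4 : h * (g * a * g⁻¹) * h⁻¹ ≠ 1 := by
    intro h0
    have := orderOf_conj h (g * a * g⁻¹)
    rw [h0, orderOf_one, orderOf_conj, hao] at this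
    omega
  obtain ⟨i, hi0, hi, h5⟩ := Pair.exists_pow (by norm_num) hXo h3 h4
  obtain ⟨k, -, hk⟩ := Pair.arith2 i hi hi0
  refine ⟨f ^ k * h * g, X, hX, ?_, ?_⟩
  · have e1 : f ^ k * h * g * e * (f ^ k * h * g)⁻¹ = f ^ k * (h * (g * e * g⁻¹) * h⁻¹) * (f ^ k)⁻¹ := by group
    rw [e1, h2, ← pow_succ, pow_succ', mul_inv_cancel_right]
  · have e1 : f ^ k * h * g * a * (f ^ k * h * g)⁻¹ = f ^ k * (h * (g * a * g⁻¹) * h⁻¹) * (f ^ k)⁻¹ := by group
    have e2 : f ^ k * h * g * a * (f ^ k * h * g)⁻¹ = X ^ ((3 ^ k * i) % 11) := by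
      rw [e1, h5, ← conj_pow, Pair.pow_conj_pow hfX, ← pow_mul]
      conv_rhs => rw [← hXo, pow_mod_orderOf]
    rcases hk with hk | hk
    · left; rw [e2, hk, pow_one]
    · right
      have h11 : X ^ (10 + 1) = 1 := by
        have := pow_orderOf_eq_one X
        rwa [hXo] at this
      rw [e2, hk, eq_inv_iff_mul_eq_one, ← pow_succ, h11]

end Cfsg.Agent.H837.JM.Pnt
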